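import Cfsg.Agent.RootSub.Basic
import Cfsg.Agent.RootSub.SL2Gen.Basic
import Cfsg.Agent.Linear.Transvection

/-!
Rank one pairs from homomorphisms of `SL₂`, the embedding of `SL₂` on a hyperbolic pair, and small
linear algebra used for the transvection classes.
-/

set_option autoImplicit false

namespace Cfsg.Agent.RootTransv

open Matrix Cfsg Cfsg.Agent.RootSub.SL2Gen
open scoped Matrix

variable {k : Type*} [Field k]

local notation "SL₂" => Matrix.SpecialLinearGroup (Fin 2) k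

@[simp] theorem coe_uu (r : k) : ((uu r : SL₂) : Matrix (Fin 2) (Fin 2) k) = !![1, r; 0, 1] := rfl

@[simp] theorem coe_vv (r : k) : ((vv r : SL₂) : Matrix (Fin 2) (Fin 2) k) = !![1, 0; r, 1] := rfl

theorem mem_upper {g : SL₂} : g ∈ upperUnipotentSL2 k ↔ ∃ r : k, g = uu r := by
  constructor
  · intro h
    induction h using Subgroup.closure_induction with
    | mem x hx => exact ⟨x 0 1, sl_ext (by simpa using hx.2.1) (by simp)
        (by simpa using hx.1) (by simpa using hx.2.2)⟩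
    | one => exact ⟨0, uu_zero.symm⟩
    | mul x y _ _ hx hy =>
      obtain ⟨r, rfl⟩ := hx; obtain ⟨s, rfl⟩ := hy
      exact ⟨r + s, uu_add r s⟩
    | inv x _ hx => obtain ⟨r, rfl⟩ := hx; exact ⟨-r, uu_inv r⟩
  · rintro ⟨r, rfl⟩
    exact Subgroup.subset_closure ⟨by simp, by simp, by simp⟩

theorem mem_lower {g : SL₂} : g ∈ lowerUnipotentSL2 k ↔ ∃ r : k, g = vv r := by
  constructor
  · intro h
    induction h using Subgroup.closure_induction with
    | mem x hx => exact ⟨x 1 0, sl_ext (by simpa using hx.2.1) (by simpa using hx.1)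
        (by simp) (by simpa using hx.2.2)⟩
    | one => exact ⟨0, vv_zero.symm⟩
    | mul x y _ _ hx hy =>
      obtain ⟨r, rfl⟩ := hx; obtain ⟨s, rfl⟩ := hy
      exact ⟨r + s, vv_add r s⟩
    | inv x _ hx => obtain ⟨r, rfl⟩ := hx; exact ⟨-r, vv_inv r⟩
  · rintro ⟨r, rfl⟩
    exact Subgroup.subset_closure ⟨by simp, by simp, by simp⟩

theorem sup_eq_top : upperUnipotentSL2 k ⊔ lowerUnipotentSL2 k = ⊤ := by
  rw [eq_top_iff]
  intro g _
  refine Cfsg.Agent.Linear.transvection_induction (fun x => x ∈ upperUnipotentSL2 k ⊔ lowerUnipotentSL2 k)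
    (fun i j hij c => ?_) (fun a b ha hb => mul_mem ha hb) g
  fin_cases i <;> fin_cases j
  · exact absurd rfl hij
  · refine Subgroup.mem_sup_left (mem_upper.2 ⟨c, sl_ext ?_ ?_ ?_ ?_⟩) <;>
      simp [Matrix.SpecialLinearGroup.transvection_coe, Matrix.single_apply]
  · refine Subgroup.mem_sup_right (mem_lower.2 ⟨c, sl_ext ?_ ?_ ?_ ?_⟩) <;>
      simp [Matrix.SpecialLinearGroup.transvection_coe, Matrix.single_apply]
  · exact absurd rfl hij

theorem eq_zero_of_uu_central {r : k} (h : uu r ∈ Subgroup.center SL₂) : r = 0 := by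
  have := congrArg (fun g : SL₂ => g 0 0) (Subgroup.mem_center_iff.1 h (vv 1))
  simpa [Matrix.mul_apply, Fin.sum_univ_two] using this

theorem eq_zero_of_vv_central {r : k} (h : vv r ∈ Subgroup.center SL₂) : r = 0 := by
  have := congrArg (fun g : SL₂ => g 1 1) (Subgroup.mem_center_iff.1 h (uu 1))
  simpa [Matrix.mul_apply, Fin.sum_univ_two] using this

/-- the monomial element attached to `r` -/
def wel (r : k) (hr : r ≠ 0) : SL₂ :=
  ⟨!![0, r; -r⁻¹, 0], by simp [Matrix.det_fin_two, hr]⟩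

@[simp] theorem coe_wel {r : k} (hr : r ≠ 0) :
    ((wel r hr : SL₂) : Matrix (Fin 2) (Fin 2) k) = !![0, r; -r⁻¹, 0] := rfl

theorem wel_mul_uu {r : k} (hr : r ≠ 0) (x : k) :
    wel r hr * uu x = vv (-(r⁻¹ * r⁻¹ * x)) * wel r hr := by
  apply sl_ext <;> simp [Matrix.mul_apply, Fin.sum_univ_two] <;> field_simp

theorem uu_vv_uu {r : k} (hr : r ≠ 0) : uu r * vv (-r⁻¹) * uu r = wel r hr := by
  apply sl_ext <;> simp [Matrix.mul_apply, Fin.sum_univ_two, hr]

theorem conjBy_upper {r : k} (hr : r ≠ 0) :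
    conjBy (upperUnipotentSL2 k) (wel r hr) = lowerUnipotentSL2 k := by
  ext g
  rw [Cfsg.Agent.RootSub.mem_conjBy, mem_upper, mem_lower]
  constructor
  · rintro ⟨x, hx⟩
    refine ⟨-(r⁻¹ * r⁻¹ * x), ?_⟩
    have h := wel_mul_uu hr x
    rw [← hx] at h
    rw [← mul_inv_eq_iff_eq_mul.2 h]
    group
  · rintro ⟨y, rfl⟩
    refine ⟨-(r * r * y), ?_⟩
    have h := wel_mul_uu hr (-(r * r * y))
    rw [show -(r⁻¹ * r⁻¹ * -(r * r * y)) = y by field_simp] at h
    rw [mul_assoc, ← h]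
    group

theorem sl_rankOne_left : RankOneCondition (upperUnipotentSL2 k) (lowerUnipotentSL2 k) := by
  intro a ha ha1
  obtain ⟨r, rfl⟩ := mem_upper.1 ha
  have hr : r ≠ 0 := fun h => ha1 (by rw [h, uu_zero])
  refine ⟨vv r⁻¹, mem_lower.2 ⟨_, rfl⟩, fun h => ?_, ?_⟩
  · exact inv_ne_zero hr (eq_zero_of_vv_central (by rw [h]; exact one_mem _))
  · have hu : conjBy (upperUnipotentSL2 k) (uu r) = upperUnipotentSL2 k :=
      Cfsg.Agent.RootSub.conjBy_mem_self (mem_upper.2 ⟨r, rfl⟩)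
    rw [← conjBy_upper hr, Cfsg.Agent.RootSub.conjBy_conjBy,
      show (uu r)⁻¹ * wel r hr = (vv r⁻¹)⁻¹ * uu r by
        rw [← uu_vv_uu hr, vv_inv]; group,
      ← Cfsg.Agent.RootSub.conjBy_conjBy, hu]

theorem conjBy_lower {r : k} (hr : r ≠ 0) :
    conjBy (lowerUnipotentSL2 k) (wel r hr) = upperUnipotentSL2 k := by
  rw [← conjBy_upper hr, Cfsg.Agent.RootSub.conjBy_conjBy]
  refine Cfsg.Agent.RootSub.conjBy_of_commute fun a _ => ?_
  apply sl_ext <;> simp [Matrix.mul_apply, Fin.sum_univ_two, hr]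

theorem sl_rankOne_right : RankOneCondition (lowerUnipotentSL2 k) (upperUnipotentSL2 k) := by
  intro a ha ha1
  set w : SL₂ := wel 1 one_ne_zero
  have hwa : w * a * w⁻¹ ∈ upperUnipotentSL2 k := by
    rw [← conjBy_lower (one_ne_zero (α := k))]
    exact Cfsg.Agent.RootSub.conj_mem_conjBy w ha
  obtain ⟨b, hb, hb1, he⟩ := sl_rankOne_left _ hwa (fun h => ha1 (conj_eq_one_iff.1 h))
  refine ⟨w⁻¹ * b * w, ?_, fun h => hb1 ?_, ?_⟩
  · rw [← conjBy_upper (one_ne_zero (α := k)), Cfsg.Agent.RootSub.mem_conjBy] at hb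
    exact hb
  · exact conj_eq_one_iff.1 (show w⁻¹ * b * w⁻¹⁻¹ = 1 by rw [inv_inv]; exact h)
  · have h := congrArg (fun C => conjBy C w⁻¹) he
    simp only [Cfsg.Agent.RootSub.conjBy_conjBy] at h
    have e1 : (w⁻¹ * b * w)⁻¹ = w⁻¹ * b⁻¹ * w := by group
    have e2 : a⁻¹ = w⁻¹ * (w * a * w⁻¹)⁻¹ * w := by group
    rw [e1, e2, ← Cfsg.Agent.RootSub.conjBy_conjBy _ w (w⁻¹ * b⁻¹), conjBy_lower,
      ← Cfsg.Agent.RootSub.conjBy_conjBy _ w (w⁻¹ * (w * a * w⁻¹)⁻¹), conjBy_upper]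
    exact h

theorem isNilpotent_of_comm {G : Type*} [Group G] (A : Subgroup G) [IsMulCommutative A] :
    Group.IsNilpotent A := by
  letI : CommGroup A := { (inferInstance : Group A) with mul_comm := IsMulCommutative.is_comm.comm }
  exact inferInstance

/-- a homomorphism with central kernel gives a rank one pair -/
theorem pair_of_hom {G : Type*} [Group G] (φ : SL₂ →* G) (hker : φ.ker ≤ Subgroup.center SL₂) :
    IsRankOnePair ((upperUnipotentSL2 k).map φ) ((lowerUnipotentSL2 k).map φ) ∧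
      IsPSL2PairOver k ((upperUnipotentSL2 k).map φ) ((lowerUnipotentSL2 k).map φ) := by
  refine ⟨⟨?_, ?_, ?_, ?_, ?_⟩, φ, ?_, hker, rfl, rfl⟩
  · intro h
    have h1 : φ (uu 1) ∈ (lowerUnipotentSL2 k).map φ :=
      h ▸ Subgroup.mem_map_of_mem φ (mem_upper.2 ⟨1, rfl⟩)
    obtain ⟨x, hx, hxe⟩ := h1
    obtain ⟨s, rfl⟩ := mem_lower.1 hx
    have hz : (vv s)⁻¹ * uu 1 ∈ Subgroup.center SL₂ :=
      hker (by rw [MonoidHom.mem_ker, map_mul, map_inv, hxe, inv_mul_cancel])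
    have := congrArg (fun g : SL₂ => g 0 0) (Subgroup.mem_center_iff.1 hz (vv 1))
    rw [vv_inv] at this
    simp [Matrix.mul_apply, Fin.sum_univ_two] at this
  · haveI : IsMulCommutative ((upperUnipotentSL2 k).map φ) := ⟨⟨by
      rintro ⟨_, x, hx, rfl⟩ ⟨_, y, hy, rfl⟩
      obtain ⟨r, rfl⟩ := mem_upper.1 hx; obtain ⟨t, rfl⟩ := mem_upper.1 hy
      exact Subtype.ext (by
        show φ _ * φ _ = φ _ * φ _
        rw [← map_mul, ← map_mul, uu_add, uu_add, add_comm])⟩⟩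
    exact isNilpotent_of_comm _
  · haveI : IsMulCommutative ((lowerUnipotentSL2 k).map φ) := ⟨⟨by
      rintro ⟨_, x, hx, rfl⟩ ⟨_, y, hy, rfl⟩
      obtain ⟨r, rfl⟩ := mem_lower.1 hx; obtain ⟨t, rfl⟩ := mem_lower.1 hy
      exact Subtype.ext (by
        show φ _ * φ _ = φ _ * φ _
        rw [← map_mul, ← map_mul, vv_add, vv_add, add_comm])⟩⟩
    exact isNilpotent_of_comm _
  · rintro _ ⟨a, ha, rfl⟩ ha1
    obtain ⟨b, hb, hb1, he⟩ := sl_rankOne_left a ha (fun h => ha1 (by rw [h, map_one]))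
    refine ⟨φ b, Subgroup.mem_map_of_mem φ hb, fun h => hb1 ?_, ?_⟩
    · obtain ⟨s, rfl⟩ := mem_lower.1 hb
      rw [eq_zero_of_vv_central (hker h), vv_zero]
    · rw [← map_inv, ← map_inv, ← Cfsg.Agent.RootSub.map_conjBy,
        ← Cfsg.Agent.RootSub.map_conjBy, he]
  · rintro _ ⟨a, ha, rfl⟩ ha1
    obtain ⟨b, hb, hb1, he⟩ := sl_rankOne_right a ha (fun h => ha1 (by rw [h, map_one]))
    refine ⟨φ b, Subgroup.mem_map_of_mem φ hb, fun h => hb1 ?_, ?_⟩
    · obtain ⟨s, rfl⟩ := mem_upper.1 hb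
      rw [eq_zero_of_uu_central (hker h), uu_zero]
    · rw [← map_inv, ← map_inv, ← Cfsg.Agent.RootSub.map_conjBy,
        ← Cfsg.Agent.RootSub.map_conjBy, he]
  · rw [← Subgroup.map_sup, sup_eq_top, MonoidHom.range_eq_map]

section Emb

variable {ι : Type*} [Fintype ι] [DecidableEq ι]

/-- `SL₂` acting on the span of `u, v` along the common kernel of `f, f'`. -/
def pairHom (u v f f' : ι → k) (h₁ : f ⬝ᵥ u = 1) (h₂ : f ⬝ᵥ v = 0) (h₃ : f' ⬝ᵥ u = 0)
    (h₄ : f' ⬝ᵥ v = 1) : SL₂ →* Matrix.SpecialLinearGroup ι k :=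
  let P : Matrix ι (Fin 2) k := (Matrix.of ![u, v])ᵀ
  let Q : Matrix (Fin 2) ι k := Matrix.of ![f, f']
  have hQP : Q * P = 1 := by
    ext i j
    fin_cases i <;> fin_cases j <;> simpa [P, Q, Matrix.mul_apply, dotProduct]
  { toFun := fun g => ⟨1 + P * ((g.1 - 1) * Q), by
      rw [Matrix.det_one_add_mul_comm, Matrix.mul_assoc, hQP, Matrix.mul_one, add_sub_cancel, g.2]⟩
    map_one' := Subtype.ext (by simp)
    map_mul' := fun g h => Subtype.ext (by
      change 1 + P * (((g.1 * h.1) - 1) * Q) =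
        (1 + P * ((g.1 - 1) * Q)) * (1 + P * ((h.1 - 1) * Q))
      have e : P * ((g.1 - 1) * Q) * (P * ((h.1 - 1) * Q)) =
          P * ((g.1 - 1) * (h.1 - 1) * Q) := by
        simp only [Matrix.mul_assoc]
        rw [← Matrix.mul_assoc Q P, hQP, Matrix.one_mul]
      rw [Matrix.add_mul, Matrix.mul_add, Matrix.mul_add, Matrix.one_mul, Matrix.mul_one,
        Matrix.one_mul, e, add_assoc, ← Matrix.mul_add, ← Matrix.mul_add, ← Matrix.add_mul,
        ← Matrix.add_mul]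
      congr 3
      noncomm_ring) }

variable {u v f f' : ι → k} (h₁ : f ⬝ᵥ u = 1) (h₂ : f ⬝ᵥ v = 0) (h₃ : f' ⬝ᵥ u = 0) (h₄ : f' ⬝ᵥ v = 1)

theorem pairHom_mulVec (g : SL₂) (x : ι → k) :
    (pairHom u v f f' h₁ h₂ h₃ h₄ g).1 *ᵥ x =
      x + ((g 0 0 - 1) * (f ⬝ᵥ x) + g 0 1 * (f' ⬝ᵥ x)) • u +
        (g 1 0 * (f ⬝ᵥ x) + (g 1 1 - 1) * (f' ⬝ᵥ x)) • v := by
  change (1 + (Matrix.of ![u, v])ᵀ * ((g.1 - 1) * Matrix.of ![f, f'])) *ᵥ x = _
  rw [Matrix.add_mulVec, Matrix.one_mulVec, ← Matrix.mulVec_mulVec, ← Matrix.mulVec_mulVec]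
  ext i
  simp [Matrix.mulVec, dotProduct, Fin.sum_univ_two]
  ring

theorem pairHom_uu (r : k) (x : ι → k) :
    (pairHom u v f f' h₁ h₂ h₃ h₄ (uu r)).1 *ᵥ x = x + (r * (f' ⬝ᵥ x)) • u := by
  rw [pairHom_mulVec]; simp

theorem pairHom_vv (r : k) (x : ι → k) :
    (pairHom u v f f' h₁ h₂ h₃ h₄ (vv r)).1 *ᵥ x = x + (r * (f ⬝ᵥ x)) • v := by
  rw [pairHom_mulVec]; simp

theorem pairHom_injective : Function.Injective (pairHom u v f f' h₁ h₂ h₃ h₄) := by
  intro g g' hg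
  have e : ∀ y, (pairHom u v f f' h₁ h₂ h₃ h₄ g).1 *ᵥ y =
      (pairHom u v f f' h₁ h₂ h₃ h₄ g').1 *ᵥ y := fun y => by rw [hg]
  have eu := e u
  have ev := e v
  simp only [pairHom_mulVec, h₁, h₂, h₃, h₄, mul_one, mul_zero, add_zero, zero_add] at eu ev
  have a1 := congrArg (f ⬝ᵥ ·) eu
  have a2 := congrArg (f' ⬝ᵥ ·) eu
  have a3 := congrArg (f ⬝ᵥ ·) ev
  have a4 := congrArg (f' ⬝ᵥ ·) ev
  simp [dotProduct_add, h₁, h₂, h₃, h₄] at a1 a2 a3 a4
  exact sl_ext a1 a3 a2 a4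

end Emb

/-- two non-zero functionals have a common vector off both kernels -/
theorem exists_off_two {ι : Type*} [Fintype ι] [DecidableEq ι] {a b : ι → k} (ha : a ≠ 0)
    (hb : b ≠ 0) : ∃ w, a ⬝ᵥ w ≠ 0 ∧ b ⬝ᵥ w ≠ 0 := by
  obtain ⟨i, hi⟩ := Function.ne_iff.1 ha
  obtain ⟨j, hj⟩ := Function.ne_iff.1 hb
  simp only [Pi.zero_apply] at hi hj
  by_cases h1 : b i = 0
  · by_cases h2 : a j = 0
    · exact ⟨Pi.single i 1 + Pi.single j 1, by simp [dotProduct_add, h1, h2, hi, hj]⟩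
    · exact ⟨Pi.single j 1, by simp [h2, hj]⟩
  · exact ⟨Pi.single i 1, by simp [h1, hi]⟩

/-- a connected graph of rank one pairs forces a single class -/
theorem isConjClass_of_connected {G : Type*} [Group G] {S : Set (Subgroup G)} (hne : S.Nonempty)
    (hc : IsConnectedFamily (FAdj S) S) : IsConjClassOfSubgroups S := by
  refine ⟨hne, fun A hA B hB => ?_⟩
  induction hc A hA B hB with
  | refl => exact ⟨1, (Cfsg.Agent.RootSub.conjBy_one A).symm⟩
  | @tail C D _ h ih =>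
    obtain ⟨g, hg⟩ := ih h.1
    obtain ⟨x, -, hx⟩ := Cfsg.Agent.RootSub.Pair.right_mem_unipotents h.2.2
    exact ⟨x * g, by rw [hx, hg, Cfsg.Agent.RootSub.conjBy_conjBy]⟩

end Cfsg.Agent.RootTransv
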