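import Cfsg.Agent.RootTransv.Linear
import Cfsg.Agent.RootSub.Involutions

/-!
The transvections of `SL_n` in characteristic two form a class of root involutions.
-/

set_option autoImplicit false

namespace Cfsg.Agent.RootTransv.Lin

open Matrix Cfsg Cfsg.Agent.MinDeg.SLMin Cfsg.Agent.RootSub.SL2Gen
open scoped Matrix

variable {k : Type*} [Field k] {m : ℕ}

/-- the transvections -/
def D (k : Type*) [Field k] (m : ℕ) : Set (SpecialLinearGroup (Fin m) k) :=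
  {t | ∃ u φ : Fin m → k, u ≠ 0 ∧ φ ≠ 0 ∧ φ ⬝ᵥ u = 0 ∧ t = tv u φ}

theorem tv_ne_one {u φ : Fin m → k} (h : φ ⬝ᵥ u = 0) (hu : u ≠ 0) (hφ : φ ≠ 0) : tv u φ ≠ 1 :=
  fun e => one_ne_zero (tv_eq_one h hu hφ (c := 1) (by rwa [one_smul]))

/-- an element of `SL₂` of non-zero trace has odd order in characteristic two -/
theorem odd_order [Finite k] [CharP k 2] (x : Matrix.SpecialLinearGroup (Fin 2) k)
    (hx : x 0 0 + x 1 1 ≠ 0) : Odd (orderOf x) := by
  rw [← Nat.not_even_iff_odd]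
  rintro ⟨r, hr⟩
  have hpos := orderOf_pos x
  have h1 : x ^ r * x ^ r = 1 := by rw [← pow_add, ← hr, pow_orderOf_eq_one]
  have hne : x ^ r ≠ 1 := pow_ne_one_of_lt_orderOf (by omega) (by omega)
  have hc : x * x ^ r = x ^ r * x := (Commute.self_pow x r).eq
  generalize x ^ r = h at h1 hne hc
  have e : ∀ i j : Fin 2, h i 0 * h 0 j + h i 1 * h 1 j = (1 : Matrix (Fin 2) (Fin 2) k) i j := fun i j => by
    have := congrArg (fun g : Matrix.SpecialLinearGroup (Fin 2) k => g i j) h1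
    simpa [Matrix.mul_apply, Fin.sum_univ_two] using this
  have c : ∀ i j : Fin 2, x i 0 * h 0 j + x i 1 * h 1 j = h i 0 * x 0 j + h i 1 * x 1 j := fun i j => by
    have := congrArg (fun g : Matrix.SpecialLinearGroup (Fin 2) k => g i j) hc
    simpa [Matrix.mul_apply, Fin.sum_univ_two] using this
  have hd := det_eq h
  have h2 : (2 : k) = 0 := CharP.ofNat_eq_zero k 2
  have e00 := e 0 0
  have e01 := e 0 1
  have e10 := e 1 0
  have e11 := e 1 1
  simp at e00 e01 e10 e11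
  have htr : h 0 0 + h 1 1 = 0 := by
    by_contra htr
    have z1 : h 0 1 = 0 :=
      (mul_eq_zero.1 (show (h 0 0 + h 1 1) * h 0 1 = 0 by linear_combination e01)).resolve_left htr
    have z2 : h 1 0 = 0 :=
      (mul_eq_zero.1 (show (h 0 0 + h 1 1) * h 1 0 = 0 by linear_combination e10)).resolve_left htr
    rw [z1, z2] at e00 e11
    have a1 : h 0 0 = 1 := by
      have : (h 0 0 - 1) * (h 0 0 - 1) = 0 := by linear_combination e00 - (h 0 0 - 1) * h2
      exact sub_eq_zero.1 (mul_self_eq_zero.1 this)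
    have a2 : h 1 1 = 1 := by
      have : (h 1 1 - 1) * (h 1 1 - 1) = 0 := by linear_combination e11 - (h 1 1 - 1) * h2
      exact sub_eq_zero.1 (mul_self_eq_zero.1 this)
    exact hne (Cfsg.Agent.RootSub.SL2Gen.sl_ext (by simpa using a1) (by simpa using z1)
      (by simpa using z2) (by simpa using a2))
  have c01 := c 0 1
  have c10 := c 1 0
  have y : (x 0 0 + x 1 1) * h 0 1 = 0 := by
    linear_combination c01 - x 0 1 * htr + (h 0 1 * x 1 1 + h 0 0 * x 0 1) * h2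
  have z : (x 0 0 + x 1 1) * h 1 0 = 0 := by
    linear_combination c10 - x 1 0 * htr + (h 1 0 * x 0 0 + h 1 1 * x 1 0) * h2
  have y0 := (mul_eq_zero.1 y).resolve_left hx
  have z0 := (mul_eq_zero.1 z).resolve_left hx
  rw [y0, z0] at e00 e11
  have a1 : h 0 0 = 1 := by
    have : (h 0 0 - 1) * (h 0 0 - 1) = 0 := by linear_combination e00 - (h 0 0 - 1) * h2
    exact sub_eq_zero.1 (mul_self_eq_zero.1 this)
  have a2 : h 1 1 = 1 := by
    have : (h 1 1 - 1) * (h 1 1 - 1) = 0 := by linear_combination e11 - (h 1 1 - 1) * h2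
    exact sub_eq_zero.1 (mul_self_eq_zero.1 this)
  exact hne (Cfsg.Agent.RootSub.SL2Gen.sl_ext (by simpa using a1) (by simpa using y0)
    (by simpa using z0) (by simpa using a2))

variable [CharP k 2]

theorem tv_sq {u φ : Fin m → k} (h : φ ⬝ᵥ u = 0) : tv u φ * tv u φ = 1 := by
  rw [← tv_add _ _ _ h h]
  have : φ + φ = 0 := funext fun i => CharTwo.add_self_eq_zero (φ i)
  rw [this, tv_zero]

theorem four {u φ v ψ : Fin m → k} (hu : u ≠ 0) (hψ : ψ ≠ 0) (h : φ ⬝ᵥ u = 0) (h' : ψ ⬝ᵥ v = 0)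
    (ha : φ ⬝ᵥ v ≠ 0) (hb : ψ ⬝ᵥ u = 0) :
    orderOf (tv u φ * tv v ψ) = 4 ∧ (tv u φ * tv v ψ) ^ 2 ∈ D k m ∧
      orderOf (tv v ψ * tv u φ) = 4 ∧ (tv v ψ * tv u φ) ^ 2 ∈ D k m := by
  have hi : ∀ {w χ : Fin m → k}, χ ⬝ᵥ w = 0 → (tv w χ)⁻¹ = tv w χ := fun hw =>
    inv_eq_of_mul_eq_one_left (tv_sq hw)
  have hok := smul_ok hb (φ ⬝ᵥ v)
  have e1 : (tv u φ * tv v ψ) ^ 2 = tv ((φ ⬝ᵥ v) • u) ψ := by
    rw [← commutator_tv h h' hb, hi h, hi h', pow_two]
    group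
  have e2 : (tv v ψ * tv u φ) ^ 2 = tv ((φ ⬝ᵥ v) • u) ψ := by
    rw [← hi hok, ← e1, ← inv_pow, _root_.mul_inv_rev, hi h, hi h']
  have hD : tv ((φ ⬝ᵥ v) • u) ψ ∈ D k m := ⟨_, _, smul_ne_zero ha hu, hψ, hok, rfl⟩
  have ho : ∀ {y : SpecialLinearGroup (Fin m) k}, y ^ 2 = tv ((φ ⬝ᵥ v) • u) ψ → orderOf y = 4 := by
    intro y hy
    refine orderOf_eq_prime_pow (p := 2) (n := 1) ?_ ?_
    · rw [pow_one, hy]; exact tv_ne_one hok (smul_ne_zero ha hu) hψ
    · rw [show 2 ^ (1 + 1) = 2 * 2 by norm_num, pow_mul, hy, pow_two, tv_sq hok]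
  exact ⟨ho e1, e1 ▸ hD, ho e2, e2 ▸ hD⟩

theorem odd_pair [Finite k] {u φ v ψ : Fin m → k} (h : φ ⬝ᵥ u = 0) (h' : ψ ⬝ᵥ v = 0)
    (ha : φ ⬝ᵥ v ≠ 0) (hb : ψ ⬝ᵥ u ≠ 0) :
    Odd (orderOf (tv u φ * tv v ψ)) ∧
      (Nat.card k = 2 → orderOf (tv u φ * tv v ψ) = 1 ∨ orderOf (tv u φ * tv v ψ) = 3) := by
  have h₁ : ((ψ ⬝ᵥ u)⁻¹ • ψ) ⬝ᵥ u = 1 := by rw [smul_dotProduct, smul_eq_mul, inv_mul_cancel₀ hb]
  have h₂ : ((ψ ⬝ᵥ u)⁻¹ • ψ) ⬝ᵥ v = 0 := by rw [smul_dotProduct, h', smul_zero]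
  have h₃ : ((φ ⬝ᵥ v)⁻¹ • φ) ⬝ᵥ u = 0 := by rw [smul_dotProduct, h, smul_zero]
  have h₄ : ((φ ⬝ᵥ v)⁻¹ • φ) ⬝ᵥ v = 1 := by rw [smul_dotProduct, smul_eq_mul, inv_mul_cancel₀ ha]
  set f := pairHom u v _ _ h₁ h₂ h₃ h₄ with hf
  have eu : f (uu (φ ⬝ᵥ v)) = tv u φ := by
    apply Cfsg.Agent.MinDeg.SLMin.sl_ext
    intro x
    rw [hf, pairHom_uu, tv_mulVec h, smul_dotProduct, smul_eq_mul, mul_inv_cancel_left₀ ha]
  have ev : f (vv (ψ ⬝ᵥ u)) = tv v ψ := by
    apply Cfsg.Agent.MinDeg.SLMin.sl_ext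
    intro x
    rw [hf, pairHom_vv, tv_mulVec h', smul_dotProduct, smul_eq_mul, mul_inv_cancel_left₀ hb]
  rw [← eu, ← ev, ← map_mul, orderOf_injective f (pairHom_injective h₁ h₂ h₃ h₄)]
  refine ⟨odd_order _ ?_, fun hk => ?_⟩
  · have h2 : (2 : k) = 0 := CharP.ofNat_eq_zero k 2
    have : ((uu (φ ⬝ᵥ v) * vv (ψ ⬝ᵥ u) : Matrix.SpecialLinearGroup (Fin 2) k) 0 0 +
        (uu (φ ⬝ᵥ v) * vv (ψ ⬝ᵥ u) : Matrix.SpecialLinearGroup (Fin 2) k) 1 1) =
        (φ ⬝ᵥ v) * (ψ ⬝ᵥ u) := by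
      simp [Matrix.mul_apply, Fin.sum_univ_two]
      linear_combination h2
    rw [this]
    exact mul_ne_zero ha hb
  · have one : ∀ a : k, a ≠ 0 → a = 1 := by
      intro a ha'
      classical
      haveI := Fintype.ofFinite k
      rw [Nat.card_eq_fintype_card] at hk
      have hu : (Finset.univ : Finset k) = {0, 1} := (Finset.eq_of_subset_of_card_le
        (Finset.subset_univ _) (by rw [Finset.card_univ, hk, Finset.card_pair zero_ne_one])).symm
      have := Finset.mem_univ a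
      rw [hu, Finset.mem_insert, Finset.mem_singleton] at this
      exact this.resolve_left ha'
    rw [one _ ha, one _ hb]
    have h2 : (2 : k) = 0 := CharP.ofNat_eq_zero k 2
    have h3 : (uu 1 * vv 1 : Matrix.SpecialLinearGroup (Fin 2) k) ^ 3 = 1 := by
      apply Cfsg.Agent.RootSub.SL2Gen.sl_ext <;>
        simp [pow_succ, Matrix.mul_apply, Fin.sum_univ_two] <;>
        first
          | linear_combination h2
          | linear_combination 2 * h2
          | linear_combination 3 * h2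
          | linear_combination 4 * h2
          | linear_combination 5 * h2
          | linear_combination 6 * h2
    exact (Nat.dvd_prime Nat.prime_three).1 (orderOf_dvd_of_pow_eq_one h3)

theorem cases [Finite k] {s t : SpecialLinearGroup (Fin m) k} (hs : s ∈ D k m) (ht : t ∈ D k m) :
    s * t = t * s ∨
      (Odd (orderOf (s * t)) ∧ (Nat.card k = 2 → orderOf (s * t) = 1 ∨ orderOf (s * t) = 3)) ∨
      (orderOf (s * t) = 4 ∧ (s * t) ^ 2 ∈ D k m) := by
  obtain ⟨u, φ, hu, hφ, h, rfl⟩ := hs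
  obtain ⟨v, ψ, hv, hψ, h', rfl⟩ := ht
  by_cases ha : φ ⬝ᵥ v = 0 <;> by_cases hb : ψ ⬝ᵥ u = 0
  · exact Or.inl (commute_tv h h' ha hb)
  · have := four hv hφ h' h hb ha
    exact Or.inr (Or.inr ⟨this.2.2.1, this.2.2.2⟩)
  · have := four hu hψ h h' ha hb
    exact Or.inr (Or.inr ⟨this.1, this.2.1⟩)
  · exact Or.inr (Or.inl (odd_pair h h' ha hb))

theorem isRootInvolutionSet [Finite k] (hm : 2 ≤ m) : IsRootInvolutionSet (D k m) where
  orderOf_eq := by
    rintro _ ⟨u, φ, hu, hφ, h, rfl⟩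
    exact orderOf_eq_prime (by rw [pow_two, tv_sq h]) (tv_ne_one h hu hφ)
  generates := by
    rw [eq_top_iff]
    intro g _
    haveI : Nontrivial (Fin m) := Fin.nontrivial_iff_two_le.2 hm
    refine Cfsg.Agent.Linear.transvection_induction (fun x => x ∈ Subgroup.closure (D k m))
      (fun i j hij c => ?_) (fun a b ha hb => mul_mem ha hb) g
    have hok := root_ok (F := k) hij 1
    have e : Matrix.SpecialLinearGroup.transvection hij c =
        tv (c • Pi.single i (1 : k)) (Pi.single j 1) := by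
      apply Cfsg.Agent.MinDeg.SLMin.sl_ext
      intro x
      rw [tv_mulVec (smul_ok hok c)]
      funext l
      simp [Matrix.SpecialLinearGroup.transvection_coe, Matrix.add_mulVec, Matrix.single_mulVec,
        Function.update_apply, Pi.single_apply, mul_comm]
    rw [e]
    rcases eq_or_ne c 0 with rfl | hc
    · rw [tv_smul, zero_smul, tv_zero]; exact one_mem _
    · exact Subgroup.subset_closure ⟨_, _, smul_ne_zero hc (by simp), by simp, smul_ok hok c, rfl⟩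
  conj_mem := by
    rintro _ ⟨u, φ, hu, hφ, h, rfl⟩ g
    exact ⟨_, _, (conj_ne hu hφ g).1, (conj_ne hu hφ g).2, conj_ok h g,
      by rw [tv_conj g _ _ h, mul_inv_cancel_right]⟩
  pair := fun a ha b hb => by
    rcases cases ha hb with e | e | e
    · exact Or.inl e
    · exact Or.inr (Or.inl e.1)
    · exact Or.inr (Or.inr e)

theorem isThreeFourPlus [Finite k] (hm : 2 ≤ m) (hk : Nat.card k = 2) :
    IsThreeFourPlusTranspositionSet (D k m) := by
  refine ⟨isRootInvolutionSet hm, fun a ha b hb ho => ?_⟩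
  rcases cases ha hb with e | e | e
  · left
    have hd : orderOf (a * b) ∣ 2 :=
      Cfsg.Agent.RootSub.Inv.orderOf_dvd_two_of_comm (isRootInvolutionSet hm) ha hb e
    rcases (Nat.dvd_prime Nat.prime_two).1 hd with h | h
    · exact h
    · rw [h] at ho; exact absurd ho (by decide)
  · exact e.2 hk
  · rw [e.1] at ho; exact absurd ho (by decide)

omit [CharP k 2] in
theorem exists_conj_root {i j l : Fin m} (hij : i ≠ j) (hil : i ≠ l) (hjl : j ≠ l)
    {t : SpecialLinearGroup (Fin m) k} (ht : t ∈ D k m) :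
    ∃ g, g⁻¹ * t * g = tv (Pi.single i 1) (Pi.single j 1) := by
  obtain ⟨u, φ, hu, hφ, h, rfl⟩ := ht
  have hok := root_ok (F := k) hij 1
  have hm2 : 2 ≤ m := by
    have := Fin.val_ne_of_ne hij; omega
  obtain ⟨g, hg⟩ := (isRootSubgroupClass (k := k) hm2).2.2 _ ⟨_, _, by simp, by simp, hok, rfl⟩ (T u φ)
    ⟨u, φ, hu, hφ, h, rfl⟩
  have h1 : tv u φ ∈ conjBy (T (Pi.single i 1) (Pi.single j 1)) g :=
    hg ▸ (mem_T h).2 ⟨1, by rw [one_smul]⟩
  rw [Cfsg.Agent.RootSub.mem_conjBy, mem_T hok] at h1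
  obtain ⟨c, hc⟩ := h1
  have hc0 : c ≠ 0 := by
    intro e
    rw [e, tv_smul, zero_smul, tv_zero] at hc
    exact tv_ne_one h hu hφ (conj_eq_one_iff.1
      (show g⁻¹ * tv u φ * g⁻¹⁻¹ = 1 by rw [inv_inv]; exact hc))
  refine ⟨g * hE i l c, ?_⟩
  have key : hE i l c * tv (Pi.single i 1) (Pi.single j 1) =
      tv (c • Pi.single i 1) (Pi.single j 1) * hE i l c := by
    apply Cfsg.Agent.MinDeg.SLMin.sl_ext
    intro x
    rw [sl_mul_mulVec, sl_mul_mulVec, tv_mulVec hok, tv_mulVec (smul_ok hok c)]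
    funext a
    by_cases hai : a = i
    · subst hai; simp [hE_mulVec hil hc0, hjl, hij, hij.symm]; ring
    · by_cases hal : a = l
      · subst hal; simp [hE_mulVec hil hc0, hjl, hij.symm, hil.symm]
      · simp [hE_mulVec hil hc0, hai, hal, hij.symm, hjl]
  rw [_root_.mul_inv_rev, mul_assoc ((hE i l c)⁻¹), mul_assoc ((hE i l c)⁻¹), ← mul_assoc _ g, hc,
    inv_mul_eq_iff_eq_mul, key]

theorem isRootInvolutionClass [Finite k] (hm : 3 ≤ m) : IsRootInvolutionClass (D k m) := by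
  obtain ⟨a, b, c, hab, hac, hbc⟩ : ∃ a b c : Fin m, a ≠ b ∧ a ≠ c ∧ b ≠ c :=
    ⟨⟨0, by omega⟩, ⟨1, by omega⟩, ⟨2, by omega⟩, by simp, by simp, by simp⟩
  refine ⟨isRootInvolutionSet (by omega), ⟨_, _, _, by simp, by simp, root_ok (F := k) hab 1, rfl⟩,
    fun s hs t ht => ?_⟩
  obtain ⟨g, hg⟩ := exists_conj_root hab hac hbc hs
  obtain ⟨g', hg'⟩ := exists_conj_root hab hac hbc ht
  refine ⟨g' * g⁻¹, ?_⟩
  rw [← hg] at hg'
  calc t = g' * (g'⁻¹ * t * g') * g'⁻¹ := by group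
    _ = _ := by rw [hg']; group

end Cfsg.Agent.RootTransv.Lin
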