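import Cfsg.Agent.RootTransv.Common
import Cfsg.Agent.MinDeg.SLGroup

/-!
The transvection groups of `SL_n`, `n ≥ 3`, form a class of abstract root subgroups.
-/

set_option autoImplicit false

namespace Cfsg.Agent.RootTransv.Lin

open Matrix Cfsg Cfsg.Agent.MinDeg.SLMin Cfsg.Agent.RootSub.SL2Gen
open scoped Matrix

variable {k : Type*} [Field k] {m : ℕ}

theorem smul_ok {u φ : Fin m → k} (h : φ ⬝ᵥ u = 0) (c : k) : φ ⬝ᵥ (c • u) = 0 := by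
  rw [dotProduct_smul, h, smul_zero]

theorem tv_mul_smul {u φ : Fin m → k} (h : φ ⬝ᵥ u = 0) (c d : k) :
    tv ((c + d) • u) φ = tv (c • u) φ * tv (d • u) φ := by
  rw [add_smul, tv_add_left _ _ _ (smul_ok h c) (smul_ok h d)]

theorem tv_eq_one {u φ : Fin m → k} (h : φ ⬝ᵥ u = 0) (hu : u ≠ 0) (hφ : φ ≠ 0) {c : k}
    (e : tv (c • u) φ = 1) : c = 0 := by
  obtain ⟨i, hi⟩ := Function.ne_iff.1 hφ
  have h1 : (tv (c • u) φ).1 *ᵥ Pi.single i 1 = (1 : SpecialLinearGroup (Fin m) k).1 *ᵥ Pi.single i 1 := by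
    rw [e]
  rw [tv_mulVec (smul_ok h c), sl_one_mulVec, dotProduct_single, mul_one, add_eq_left, smul_eq_zero,
    smul_eq_zero] at h1
  rcases h1 with h1 | h1 | h1
  · exact absurd h1 hi
  · exact h1
  · exact absurd h1 hu

/-- the transvection group of an incident pair -/
def T (u φ : Fin m → k) : Subgroup (SpecialLinearGroup (Fin m) k) :=
  Subgroup.closure {g | ∃ c : k, g = tv (c • u) φ}

theorem mem_T {u φ : Fin m → k} (h : φ ⬝ᵥ u = 0) {g : SpecialLinearGroup (Fin m) k} :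
    g ∈ T u φ ↔ ∃ c : k, g = tv (c • u) φ := by
  refine ⟨fun hg => ?_, fun hg => Subgroup.subset_closure hg⟩
  induction hg using Subgroup.closure_induction with
  | mem x hx => exact hx
  | one => exact ⟨0, by rw [tv_smul, zero_smul, tv_zero]⟩
  | mul x y _ _ hx hy =>
    obtain ⟨c, rfl⟩ := hx; obtain ⟨d, rfl⟩ := hy
    exact ⟨c + d, (tv_mul_smul h c d).symm⟩
  | inv x _ hx =>
    obtain ⟨c, rfl⟩ := hx
    exact ⟨-c, by rw [tv_inv _ _ (smul_ok h c), tv_smul, tv_smul, neg_smul, smul_neg]⟩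

theorem T_mem_comm {u φ : Fin m → k} (h : φ ⬝ᵥ u = 0) : IsMulCommutative (T u φ) := ⟨⟨by
  rintro ⟨a, ha⟩ ⟨b, hb⟩
  obtain ⟨c, rfl⟩ := (mem_T h).1 ha
  obtain ⟨d, rfl⟩ := (mem_T h).1 hb
  exact Subtype.ext (by
    show tv (c • u) φ * tv (d • u) φ = tv (d • u) φ * tv (c • u) φ
    rw [← tv_mul_smul h, ← tv_mul_smul h, add_comm])⟩⟩

theorem T_ne_bot {u φ : Fin m → k} (h : φ ⬝ᵥ u = 0) (hu : u ≠ 0) (hφ : φ ≠ 0) : T u φ ≠ ⊥ := by
  intro hb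
  have h1 : tv ((1 : k) • u) φ ∈ T u φ := (mem_T h).2 ⟨1, rfl⟩
  rw [hb, Subgroup.mem_bot] at h1
  exact one_ne_zero (tv_eq_one h hu hφ h1)

/-- the set of all transvection groups -/
def S (k : Type*) [Field k] (m : ℕ) : Set (Subgroup (SpecialLinearGroup (Fin m) k)) :=
  {A | ∃ u φ : Fin m → k, u ≠ 0 ∧ φ ≠ 0 ∧ φ ⬝ᵥ u = 0 ∧ A = T u φ}

theorem conjBy_T {u φ : Fin m → k} (h : φ ⬝ᵥ u = 0) (g : SpecialLinearGroup (Fin m) k) :
    conjBy (T u φ) g = T (g.1 *ᵥ u) (φ ᵥ* (g⁻¹).1) := by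
  rw [T, T, conjBy, MonoidHom.map_closure]
  congr 1
  ext x
  constructor
  · rintro ⟨_, ⟨c, rfl⟩, rfl⟩
    refine ⟨c, ?_⟩
    show g * tv (c • u) φ * g⁻¹ = _
    rw [tv_conj g _ _ (smul_ok h c), Matrix.mulVec_smul, mul_inv_cancel_right]
  · rintro ⟨c, rfl⟩
    refine ⟨_, ⟨c, rfl⟩, ?_⟩
    show g * tv (c • u) φ * g⁻¹ = _
    rw [tv_conj g _ _ (smul_ok h c), Matrix.mulVec_smul, mul_inv_cancel_right]

theorem conj_ne {u φ : Fin m → k} (hu : u ≠ 0) (hφ : φ ≠ 0) (g : SpecialLinearGroup (Fin m) k) :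
    g.1 *ᵥ u ≠ 0 ∧ φ ᵥ* (g⁻¹).1 ≠ 0 := by
  refine ⟨fun e => hu ?_, fun e => hφ ?_⟩
  · rw [← sl_inv_mulVec g u, e, Matrix.mulVec_zero]
  · have h1 : φ ᵥ* ((g⁻¹).1 * g.1) = 0 := by rw [← Matrix.vecMul_vecMul, e, Matrix.zero_vecMul]
    rw [show (g⁻¹).1 * g.1 = (1 : Matrix (Fin m) (Fin m) k) from
      congrArg Subtype.val (inv_mul_cancel g), Matrix.vecMul_one] at h1
    exact h1

theorem conj_ok {u φ : Fin m → k} (h : φ ⬝ᵥ u = 0) (g : SpecialLinearGroup (Fin m) k) :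
    (φ ᵥ* (g⁻¹).1) ⬝ᵥ (g.1 *ᵥ u) = 0 := by
  rw [← Matrix.dotProduct_mulVec, sl_inv_mulVec, h]

theorem commute_tv {u φ v ψ : Fin m → k} (h : φ ⬝ᵥ u = 0) (h' : ψ ⬝ᵥ v = 0) (ha : φ ⬝ᵥ v = 0)
    (hb : ψ ⬝ᵥ u = 0) : tv u φ * tv v ψ = tv v ψ * tv u φ := by
  apply Cfsg.Agent.MinDeg.SLMin.sl_ext
  intro x
  simp only [sl_mul_mulVec, tv_mulVec h, tv_mulVec h', dotProduct_add, dotProduct_smul, ha, hb,
    smul_zero, add_zero]
  abel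

theorem commutator_tv {u φ v ψ : Fin m → k} (h : φ ⬝ᵥ u = 0) (h' : ψ ⬝ᵥ v = 0) (hb : ψ ⬝ᵥ u = 0) :
    tv u φ * tv v ψ * (tv u φ)⁻¹ * (tv v ψ)⁻¹ = tv ((φ ⬝ᵥ v) • u) ψ := by
  rw [mul_inv_eq_iff_eq_mul, mul_inv_eq_iff_eq_mul]
  apply Cfsg.Agent.MinDeg.SLMin.sl_ext
  intro x
  simp only [sl_mul_mulVec, tv_mulVec h, tv_mulVec h', tv_mulVec (smul_ok hb (φ ⬝ᵥ v)),
    dotProduct_add, dotProduct_smul, hb, h', smul_eq_mul, mul_zero, add_zero]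
  match_scalars <;> ring

theorem pairCase {u φ v ψ : Fin m → k} (h : φ ⬝ᵥ u = 0) (h' : ψ ⬝ᵥ v = 0) (ha : φ ⬝ᵥ v ≠ 0)
    (hb : ψ ⬝ᵥ u ≠ 0) :
    IsRankOnePair (T u φ) (T v ψ) ∧ IsPSL2PairOver k (T u φ) (T v ψ) := by
  have h₁ : ((ψ ⬝ᵥ u)⁻¹ • ψ) ⬝ᵥ u = 1 := by rw [smul_dotProduct, smul_eq_mul, inv_mul_cancel₀ hb]
  have h₂ : ((ψ ⬝ᵥ u)⁻¹ • ψ) ⬝ᵥ v = 0 := by rw [smul_dotProduct, h', smul_zero]
  have h₃ : ((φ ⬝ᵥ v)⁻¹ • φ) ⬝ᵥ u = 0 := by rw [smul_dotProduct, h, smul_zero]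
  have h₄ : ((φ ⬝ᵥ v)⁻¹ • φ) ⬝ᵥ v = 1 := by rw [smul_dotProduct, smul_eq_mul, inv_mul_cancel₀ ha]
  set f := pairHom u v _ _ h₁ h₂ h₃ h₄ with hf
  have eu : ∀ r : k, f (uu r) = tv ((r * (φ ⬝ᵥ v)⁻¹) • u) φ := fun r => by
    apply Cfsg.Agent.MinDeg.SLMin.sl_ext
    intro x
    rw [hf, pairHom_uu, tv_mulVec (smul_ok h _), smul_dotProduct, smul_eq_mul, smul_smul]
    congr 2
    ring
  have ev : ∀ r : k, f (vv r) = tv ((r * (ψ ⬝ᵥ u)⁻¹) • v) ψ := fun r => by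
    apply Cfsg.Agent.MinDeg.SLMin.sl_ext
    intro x
    rw [hf, pairHom_vv, tv_mulVec (smul_ok h' _), smul_dotProduct, smul_eq_mul, smul_smul]
    congr 2
    ring
  have hU : (upperUnipotentSL2 k).map f = T u φ := by
    ext x
    rw [mem_T h]
    constructor
    · rintro ⟨y, hy, rfl⟩
      obtain ⟨r, rfl⟩ := mem_upper.1 hy
      exact ⟨_, eu r⟩
    · rintro ⟨c, rfl⟩
      refine ⟨uu (c * (φ ⬝ᵥ v)), mem_upper.2 ⟨_, rfl⟩, ?_⟩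
      rw [eu, mul_inv_cancel_right₀ ha]
  have hV : (lowerUnipotentSL2 k).map f = T v ψ := by
    ext x
    rw [mem_T h']
    constructor
    · rintro ⟨y, hy, rfl⟩
      obtain ⟨r, rfl⟩ := mem_lower.1 hy
      exact ⟨_, ev r⟩
    · rintro ⟨c, rfl⟩
      refine ⟨vv (c * (ψ ⬝ᵥ u)), mem_lower.2 ⟨_, rfl⟩, ?_⟩
      rw [ev, mul_inv_cancel_right₀ hb]
  have := pair_of_hom f (by
    rw [(MonoidHom.ker_eq_bot_iff f).2 (pairHom_injective h₁ h₂ h₃ h₄)]; exact bot_le)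
  rwa [hU, hV] at this

theorem commCase {u φ v ψ : Fin m → k} (hu : u ≠ 0) (hψ : ψ ≠ 0) (h : φ ⬝ᵥ u = 0) (h' : ψ ⬝ᵥ v = 0)
    (ha : φ ⬝ᵥ v ≠ 0) (hb : ψ ⬝ᵥ u = 0) : RootCommutatorCase (S k m) (T u φ) (T v ψ) := by
  have key : ∀ c d : k, tv (c • u) φ * tv (d • v) ψ * (tv (c • u) φ)⁻¹ * (tv (d • v) ψ)⁻¹ =
      tv ((c * d * (φ ⬝ᵥ v)) • u) ψ := fun c d => by
    rw [commutator_tv (smul_ok h c) (smul_ok h' d) (smul_ok hb c), dotProduct_smul, smul_smul,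
      smul_eq_mul]
    congr 2
    ring
  have he : ⁅T u φ, T v ψ⁆ = T u ψ := by
    apply le_antisymm
    · rw [Subgroup.commutator_le]
      intro a ha' b hb'
      obtain ⟨c, rfl⟩ := (mem_T h).1 ha'
      obtain ⟨d, rfl⟩ := (mem_T h').1 hb'
      rw [commutatorElement_def, key]
      exact (mem_T hb).2 ⟨_, rfl⟩
    · intro x hx
      obtain ⟨e, rfl⟩ := (mem_T hb).1 hx
      rw [show e = 1 * (e / (φ ⬝ᵥ v)) * (φ ⬝ᵥ v) by field_simp, ← key, ← commutatorElement_def]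
      exact Subgroup.commutator_mem_commutator ((mem_T h).2 ⟨_, rfl⟩) ((mem_T h').2 ⟨_, rfl⟩)
  refine ⟨he ▸ ⟨u, ψ, hu, hψ, hb, rfl⟩, ?_, ?_, ?_⟩
  · intro c hc x hx
    rw [he] at hc
    obtain ⟨e, rfl⟩ := (mem_T hb).1 hc
    refine Cfsg.Agent.RootSub.forall_sup_commute (fun a ha' => ?_) (fun b hb' => ?_) x hx
    · obtain ⟨c', rfl⟩ := (mem_T h).1 ha'
      exact commute_tv (smul_ok hb e) (smul_ok h c') (smul_ok hb c') (smul_ok h e)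
    · obtain ⟨c', rfl⟩ := (mem_T h').1 hb'
      exact commute_tv (smul_ok hb e) (smul_ok h' c') (smul_ok h' c') (smul_ok hb e)
  · intro a ha' ha1
    obtain ⟨c, rfl⟩ := (mem_T h).1 ha'
    have hc : c ≠ 0 := fun e => ha1 (by rw [e, tv_smul, zero_smul, tv_zero])
    rw [he]
    apply le_antisymm
    · rw [Subgroup.closure_le]
      rintro _ ⟨b, hb', rfl⟩
      obtain ⟨d, rfl⟩ := (mem_T h').1 hb'
      exact (mem_T hb).2 ⟨_, key c d⟩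
    · intro x hx
      obtain ⟨e, rfl⟩ := (mem_T hb).1 hx
      refine Subgroup.subset_closure ⟨tv ((e / (c * (φ ⬝ᵥ v))) • v) ψ, (mem_T h').2 ⟨_, rfl⟩, ?_⟩
      show _ * _ * _ * _ = _
      rw [key]
      congr 2
      field_simp
  · intro b hb' hb1
    obtain ⟨d, rfl⟩ := (mem_T h').1 hb'
    have hd : d ≠ 0 := fun e => hb1 (by rw [e, tv_smul, zero_smul, tv_zero])
    rw [he]
    apply le_antisymm
    · rw [Subgroup.closure_le]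
      rintro _ ⟨a, ha', rfl⟩
      obtain ⟨c, rfl⟩ := (mem_T h).1 ha'
      exact (mem_T hb).2 ⟨_, key c d⟩
    · intro x hx
      obtain ⟨e, rfl⟩ := (mem_T hb).1 hx
      refine Subgroup.subset_closure ⟨tv ((e / (d * (φ ⬝ᵥ v))) • u) φ, (mem_T h).2 ⟨_, rfl⟩, ?_⟩
      show _ * _ * _ * _ = _
      rw [key]
      congr 2
      field_simp

theorem commute_bot {u φ v ψ : Fin m → k} (h : φ ⬝ᵥ u = 0) (h' : ψ ⬝ᵥ v = 0) (ha : φ ⬝ᵥ v = 0)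
    (hb : ψ ⬝ᵥ u = 0) : ⁅T u φ, T v ψ⁆ = ⊥ := by
  rw [Cfsg.Agent.RootSub.commutator_eq_bot_iff_forall]
  intro a ha' b hb'
  obtain ⟨c, rfl⟩ := (mem_T h).1 ha'
  obtain ⟨d, rfl⟩ := (mem_T h').1 hb'
  exact commute_tv (smul_ok h c) (smul_ok h' d) (smul_ok ha d) (smul_ok hb c)

theorem pair_cases {u φ v ψ : Fin m → k} (hu : u ≠ 0) (hφ : φ ≠ 0) (h : φ ⬝ᵥ u = 0) (hv : v ≠ 0)
    (hψ : ψ ≠ 0) (h' : ψ ⬝ᵥ v = 0) :
    ⁅T u φ, T v ψ⁆ = ⊥ ∨ (IsRankOnePair (T u φ) (T v ψ) ∧ IsPSL2PairOver k (T u φ) (T v ψ)) ∨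
      RootCommutatorCase (S k m) (T u φ) (T v ψ) := by
  by_cases ha : φ ⬝ᵥ v = 0 <;> by_cases hb : ψ ⬝ᵥ u = 0
  · exact Or.inl (commute_bot h h' ha hb)
  · exact Or.inr (Or.inr (Cfsg.Agent.RootSub.CommCase.symm (commCase hv hφ h' h hb ha)))
  · exact Or.inr (Or.inr (commCase hu hψ h h' ha hb))
  · exact Or.inr (Or.inl (pairCase h h' ha hb))

theorem isRootSubgroupSet (hm : 2 ≤ m) : IsRootSubgroupSet (S k m) where
  commutative := by rintro _ ⟨u, φ, -, -, h, rfl⟩; exact T_mem_comm h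
  ne_bot := by rintro _ ⟨u, φ, hu, hφ, h, rfl⟩; exact T_ne_bot h hu hφ
  generates := by
    rw [eq_top_iff]
    intro g _
    haveI : Nontrivial (Fin m) := Fin.nontrivial_iff_two_le.2 hm
    refine Cfsg.Agent.Linear.transvection_induction (fun x => x ∈ ⨆ A ∈ S k m, A)
      (fun i j hij c => ?_) (fun a b ha hb => mul_mem ha hb) g
    have hok := root_ok (F := k) hij 1
    refine Subgroup.mem_iSup_of_mem (T (Pi.single i 1) (Pi.single j 1))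
      (Subgroup.mem_iSup_of_mem ⟨_, _, by simp, by simp, hok, rfl⟩ ((mem_T hok).2 ⟨c, ?_⟩))
    apply Cfsg.Agent.MinDeg.SLMin.sl_ext
    intro x
    rw [tv_mulVec (smul_ok hok c)]
    funext l
    simp [Matrix.SpecialLinearGroup.transvection_coe, Matrix.add_mulVec, Matrix.single_mulVec,
      Function.update_apply, Pi.single_apply, mul_comm]
  conj_mem := by
    rintro _ ⟨u, φ, hu, hφ, h, rfl⟩ g
    exact ⟨_, _, (conj_ne hu hφ g).1, (conj_ne hu hφ g).2, conj_ok h g, conjBy_T h g⟩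
  pair := by
    rintro _ ⟨u, φ, hu, hφ, h, rfl⟩ _ ⟨v, ψ, hv, hψ, h', rfl⟩
    rcases pair_cases hu hφ h hv hψ h' with e | e | e
    · exact Or.inl e
    · exact Or.inr (Or.inl e.1)
    · exact Or.inr (Or.inr e)

theorem isKRootSubgroupSet (hm : 2 ≤ m) : IsKRootSubgroupSet k (S k m) := by
  have hS := isRootSubgroupSet (k := k) hm
  refine ⟨hS, ?_⟩
  rintro A ⟨u, φ, hu, hφ, h, rfl⟩ B ⟨v, ψ, hv, hψ, h', rfl⟩ hr
  rcases pair_cases hu hφ h hv hψ h' with e | e | e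
  · exact absurd e (Cfsg.Agent.RootSub.Pair.commutator_ne_bot hr)
  · exact e.2
  · exact absurd hr (Cfsg.Agent.RootSub.not_rankOne_of_commCase hS ⟨u, φ, hu, hφ, h, rfl⟩
      ⟨v, ψ, hv, hψ, h', rfl⟩ e)

theorem connected : IsConnectedFamily (FAdj (S k m)) (S k m) := by
  rintro A ⟨u, φ, hu, hφ, h, rfl⟩ B ⟨v, ψ, hv, hψ, h', rfl⟩
  obtain ⟨w, hw, hw'⟩ := exists_off_two hφ hψ
  obtain ⟨i, hi⟩ := Function.ne_iff.1 (show w ≠ 0 from fun e => hw (by rw [e, dotProduct_zero]))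
  simp only [Pi.zero_apply] at hi
  set f : Fin m → k := Pi.single i (w i)⁻¹
  have hfw : f ⬝ᵥ w = 1 := by rw [single_dotProduct, inv_mul_cancel₀ hi]
  have hne : ∀ {x θ : Fin m → k}, x ≠ 0 → θ ⬝ᵥ x = 0 → θ ⬝ᵥ w ≠ 0 → x - (f ⬝ᵥ x) • w ≠ 0 := by
    intro x θ hx hθx hθw e
    rw [sub_eq_zero] at e
    have := congrArg (θ ⬝ᵥ ·) e
    simp only [hθx, dotProduct_smul, smul_eq_mul] at this
    rw [(mul_eq_zero.1 this.symm).resolve_right hθw, zero_smul] at e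
    exact hx e
  obtain ⟨χ₀, hc, hc'⟩ := exists_off_two (hne hu h hw) (hne hv h' hw')
  set χ := χ₀ - (χ₀ ⬝ᵥ w) • f with hχ
  have hval : ∀ x, χ ⬝ᵥ x = (x - (f ⬝ᵥ x) • w) ⬝ᵥ χ₀ := fun x => by
    rw [hχ, sub_dotProduct, sub_dotProduct, smul_dotProduct, smul_dotProduct, dotProduct_comm χ₀ x,
      dotProduct_comm w χ₀, smul_eq_mul, smul_eq_mul, mul_comm]
  have hχw : χ ⬝ᵥ w = 0 := by
    rw [hχ, sub_dotProduct, smul_dotProduct, hfw, smul_eq_mul, mul_one, sub_self]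
  have hw0 : w ≠ 0 := fun e => hw (by rw [e, dotProduct_zero])
  have hχu : χ ⬝ᵥ u ≠ 0 := by rw [hval]; exact hc
  have hχv : χ ⬝ᵥ v ≠ 0 := by rw [hval]; exact hc'
  have hχ0 : χ ≠ 0 := fun e => hχu (by rw [e, zero_dotProduct])
  have mW : T w χ ∈ S k m := ⟨w, χ, hw0, hχ0, hχw, rfl⟩
  have a1 : FAdj (S k m) (T u φ) (T w χ) :=
    ⟨⟨u, φ, hu, hφ, h, rfl⟩, mW, (pairCase h hχw hw hχu).1⟩
  have a2 : FAdj (S k m) (T w χ) (T v ψ) :=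
    ⟨mW, ⟨v, ψ, hv, hψ, h', rfl⟩, (pairCase hχw h' hχv hw').1⟩
  exact (Relation.ReflTransGen.single a1).tail a2

theorem isRootSubgroupClass (hm : 2 ≤ m) : IsRootSubgroupClass (S k m) := by
  refine ⟨isRootSubgroupSet hm, isConjClass_of_connected ⟨T (Pi.single ⟨0, by omega⟩ 1)
    (Pi.single ⟨1, by omega⟩ 1), _, _, by simp, by simp, root_ok (by simp) 1, rfl⟩ connected⟩

theorem isNondegenerate (hm : 3 ≤ m) : IsNondegenerateRootSet (S k m) := by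
  have mem : ∀ i j : Fin m, i ≠ j → T (Pi.single i (1 : k)) (Pi.single j 1) ∈ S k m :=
    fun i j hij => ⟨_, _, by simp, by simp, root_ok hij 1, rfl⟩
  obtain ⟨a, b, c, hab, hac, hbc⟩ : ∃ a b c : Fin m, a ≠ b ∧ a ≠ c ∧ b ≠ c :=
    ⟨⟨0, by omega⟩, ⟨1, by omega⟩, ⟨2, by omega⟩, by simp, by simp, by simp⟩
  refine ⟨⟨_, mem a b hab, _, mem a c hac, fun e => ?_,
    commute_bot (root_ok hab 1) (root_ok hac 1) (root_ok hab 1) (root_ok hac 1)⟩,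
    ⟨_, mem a b hab, _, mem b a hab.symm,
      (pairCase (root_ok hab 1) (root_ok hab.symm 1) (by simp) (by simp)).1⟩,
    ⟨_, mem a b hab, _, mem b c hbc, commCase (by simp) (by simp) (root_ok hab 1) (root_ok hbc 1)
      (by simp) (root_ok hac 1)⟩⟩
  have h1 : tv ((1 : k) • Pi.single a 1) (Pi.single b 1) ∈ T (Pi.single a (1 : k)) (Pi.single c 1) :=
    e ▸ (mem_T (root_ok hab 1)).2 ⟨1, rfl⟩
  obtain ⟨d, hd⟩ := (mem_T (root_ok hac 1)).1 h1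
  have := congrArg (fun g : SpecialLinearGroup (Fin m) k => (g.1 *ᵥ Pi.single b 1) a) hd
  simp only [tv_mulVec (smul_ok (root_ok (F := k) hab 1) 1),
    tv_mulVec (smul_ok (root_ok (F := k) hac 1) d)] at this
  simp [hab, hbc.symm] at this

end Cfsg.Agent.RootTransv.Lin
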