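import Cfsg.Agent.RootTransv.Common

/-!
A family of subgroups with the pair conditions of abstract root subgroups, viewed inside the
subgroup it generates.
-/

set_option autoImplicit false

namespace Cfsg.Agent.RootTransv

open Cfsg

variable {K : Type*} [Group K] {S : Set (Subgroup K)}

/-- the members of `S` inside the subgroup they generate -/
def inSup (S : Set (Subgroup K)) : Set (Subgroup ↥(⨆ B ∈ S, B : Subgroup K)) :=
  (fun A : Subgroup K => A.subgroupOf (⨆ B ∈ S, B)) '' S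

theorem le_sup_of_mem {A : Subgroup K} (hA : A ∈ S) : A ≤ ⨆ B ∈ S, B := le_iSup₂_of_le A hA le_rfl

theorem map_commutator_subgroupOf {H A B : Subgroup K} (hA : A ≤ H) (hB : B ≤ H) :
    ⁅A.subgroupOf H, B.subgroupOf H⁆ = ⁅A, B⁆.subgroupOf H := by
  have hAB : ⁅A, B⁆ ≤ H := (Subgroup.commutator_mono hA hB).trans
    (Subgroup.commutator_le.2 fun a ha b hb => by
      rw [commutatorElement_def]
      exact mul_mem (mul_mem (mul_mem ha hb) (inv_mem ha)) (inv_mem hb))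
  refine Subgroup.map_injective (f := H.subtype) Subtype.val_injective ?_
  rw [Subgroup.map_commutator, Subgroup.subgroupOf_map_subtype, Subgroup.subgroupOf_map_subtype,
    Subgroup.subgroupOf_map_subtype, inf_eq_left.2 hA, inf_eq_left.2 hB, inf_eq_left.2 hAB]

theorem rootCommutatorCase_inSup {A B : Subgroup K} (hA : A ∈ S) (hB : B ∈ S)
    (h : RootCommutatorCase S A B) :
    RootCommutatorCase (inSup S) (A.subgroupOf (⨆ C ∈ S, C)) (B.subgroupOf (⨆ C ∈ S, C)) := by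
  obtain ⟨h1, h2, h3, h4⟩ := h
  set H : Subgroup K := ⨆ C ∈ S, C with hH
  have lA : A ≤ H := le_sup_of_mem hA
  have lB : B ≤ H := le_sup_of_mem hB
  have e := map_commutator_subgroupOf lA lB
  have key : ∀ (f : ↥H → ↥H) (g : K → K) (C : Subgroup K), C ≤ H → (∀ x : ↥H, (f x : K) = g x) →
      ∀ D, D ≤ H → Subgroup.closure (g '' (C : Set K)) = D →
      Subgroup.closure (f '' (C.subgroupOf H : Set ↥H)) = D.subgroupOf H := by
    intro f g C hC hfg D hD hg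
    refine Subgroup.map_injective (f := H.subtype) Subtype.val_injective ?_
    rw [MonoidHom.map_closure, Subgroup.subgroupOf_map_subtype, inf_eq_left.2 hD, ← hg]
    congr 1
    ext y
    constructor
    · rintro ⟨_, ⟨x, hx, rfl⟩, rfl⟩
      exact ⟨x, hx, (hfg x).symm⟩
    · rintro ⟨x, hx, rfl⟩
      exact ⟨_, ⟨⟨x, hC hx⟩, hx, rfl⟩, hfg _⟩
  have lAB : ⁅A, B⁆ ≤ H := le_sup_of_mem h1
  refine ⟨e ▸ ⟨_, h1, rfl⟩, ?_, ?_, ?_⟩
  · intro c hc x hx
    rw [e, Subgroup.mem_subgroupOf] at hc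
    have hx' : (x : K) ∈ A ⊔ B := by
      have hm : (x : K) ∈ Subgroup.map H.subtype (A.subgroupOf H ⊔ B.subgroupOf H) := ⟨x, hx, rfl⟩
      rwa [Subgroup.map_sup, Subgroup.subgroupOf_map_subtype, Subgroup.subgroupOf_map_subtype,
        inf_eq_left.2 lA, inf_eq_left.2 lB] at hm
    exact Subtype.ext (h2 c hc x hx')
  · intro a ha ha1
    rw [e]
    exact key _ (fun b => (a : K) * b * (a : K)⁻¹ * b⁻¹) B lB (fun x => rfl) _ lAB
      (h3 a ha fun hh => ha1 (Subtype.ext hh))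
  · intro b hb hb1
    rw [e]
    exact key _ (fun a => a * (b : K) * a⁻¹ * (b : K)⁻¹) A lA (fun x => rfl) _ lAB
      (h4 b hb fun hh => hb1 (Subtype.ext hh))

theorem isPSL2PairOver_subgroupOf {k : Type*} [Field k] {H A B : Subgroup K} (hA : A ≤ H)
    (hB : B ≤ H) (h : IsPSL2PairOver k A B) : IsPSL2PairOver k (A.subgroupOf H) (B.subgroupOf H) := by
  obtain ⟨φ, hr, hk, hu, hl⟩ := h
  have hmem : ∀ g, φ g ∈ H := fun g => sup_le hA hB (hr ▸ ⟨g, rfl⟩)
  have hm : ∀ (U : Subgroup (Matrix.SpecialLinearGroup (Fin 2) k)) (C : Subgroup K),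
      U.map φ = C → U.map (φ.codRestrict H hmem) = C.subgroupOf H := by
    rintro U C rfl
    ext x
    rw [Subgroup.mem_subgroupOf, Subgroup.mem_map, Subgroup.mem_map]
    exact exists_congr fun g => and_congr_right fun _ => Subtype.ext_iff
  refine ⟨φ.codRestrict H hmem, ?_, fun g hg => hk (congrArg Subtype.val hg), hm _ _ hu, hm _ _ hl⟩
  rw [← hm _ _ hu, ← hm _ _ hl, ← Subgroup.map_sup, sup_eq_top, MonoidHom.range_eq_map]

theorem isRootSubgroupSet_inSup (hcomm : ∀ A ∈ S, IsMulCommutative A) (hne : ∀ A ∈ S, A ≠ ⊥)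
    (hconj : ∀ A ∈ S, ∀ g : K, conjBy A g ∈ S)
    (hpair : ∀ A ∈ S, ∀ B ∈ S, ⁅A, B⁆ = ⊥ ∨ IsRankOnePair A B ∨ RootCommutatorCase S A B) :
    IsRootSubgroupSet (inSup S) where
  commutative := by
    rintro _ ⟨A, hA, rfl⟩
    exact ⟨⟨fun a b => Subtype.ext (Subtype.ext (congrArg Subtype.val
      ((hcomm A hA).is_comm.comm ⟨a.1.1, a.2⟩ ⟨b.1.1, b.2⟩) :))⟩⟩
  ne_bot := by
    rintro _ ⟨A, hA, rfl⟩ h
    refine hne A hA ?_
    rw [← inf_eq_left.2 (le_sup_of_mem hA), ← Subgroup.subgroupOf_map_subtype]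
    exact (congrArg (Subgroup.map (⨆ B ∈ S, B).subtype) h).trans (Subgroup.map_bot _)
  generates := by
    refine Subgroup.map_injective (f := (⨆ B ∈ S, B : Subgroup K).subtype) Subtype.val_injective ?_
    rw [← MonoidHom.range_eq_map, Subgroup.range_subtype]
    refine le_antisymm ?_ (iSup₂_le fun A hA => ?_)
    · rintro _ ⟨x, -, rfl⟩; exact x.2
    · intro a ha
      exact ⟨⟨a, le_sup_of_mem hA ha⟩, Subgroup.mem_iSup_of_mem _
        (Subgroup.mem_iSup_of_mem ⟨A, hA, rfl⟩ ha), rfl⟩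
  conj_mem := by
    rintro _ ⟨A, hA, rfl⟩ g
    refine ⟨conjBy A g, hconj A hA g, ?_⟩
    ext x
    rw [Subgroup.mem_subgroupOf, Cfsg.Agent.RootSub.mem_conjBy, Cfsg.Agent.RootSub.mem_conjBy,
      Subgroup.mem_subgroupOf]
    rfl
  pair := by
    rintro _ ⟨A, hA, rfl⟩ _ ⟨B, hB, rfl⟩
    rcases hpair A hA B hB with h | h | h
    · refine Or.inl ?_
      rw [map_commutator_subgroupOf (le_sup_of_mem hA) (le_sup_of_mem hB), h,
        Subgroup.bot_subgroupOf]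
    · exact Or.inr (Or.inl
        ((Cfsg.Agent.RootSub.isRankOnePair_subgroupOf (le_sup_of_mem hA) (le_sup_of_mem hB)).2 h))
    · exact Or.inr (Or.inr (rootCommutatorCase_inSup hA hB h))

theorem isKRootSubgroupSet_inSup {k : Type*} [Field k] (hcomm : ∀ A ∈ S, IsMulCommutative A)
    (hne : ∀ A ∈ S, A ≠ ⊥) (hconj : ∀ A ∈ S, ∀ g : K, conjBy A g ∈ S)
    (hpair : ∀ A ∈ S, ∀ B ∈ S, ⁅A, B⁆ = ⊥ ∨ (IsRankOnePair A B ∧ IsPSL2PairOver k A B) ∨
      RootCommutatorCase S A B) :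
    IsKRootSubgroupSet k (inSup S) := by
  have hS := isRootSubgroupSet_inSup hcomm hne hconj fun A hA B hB =>
    (hpair A hA B hB).imp id (Or.imp And.left id)
  refine ⟨hS, ?_⟩
  rintro _ ⟨A, hA, rfl⟩ _ ⟨B, hB, rfl⟩ hr
  rcases hpair A hA B hB with h | h | h
  · refine absurd ?_ (Cfsg.Agent.RootSub.Pair.commutator_ne_bot hr)
    rw [map_commutator_subgroupOf (le_sup_of_mem hA) (le_sup_of_mem hB), h, Subgroup.bot_subgroupOf]
  · exact isPSL2PairOver_subgroupOf (le_sup_of_mem hA) (le_sup_of_mem hB) h.2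
  · exact absurd hr (Cfsg.Agent.RootSub.not_rankOne_of_commCase hS ⟨A, hA, rfl⟩ ⟨B, hB, rfl⟩
      (rootCommutatorCase_inSup hA hB h))

theorem isDegenerate_inSup (hcomm : ∀ A ∈ S, IsMulCommutative A) (hne : ∀ A ∈ S, A ≠ ⊥)
    (hconj : ∀ A ∈ S, ∀ g : K, conjBy A g ∈ S)
    (hpair : ∀ A ∈ S, ∀ B ∈ S, ⁅A, B⁆ = ⊥ ∨ IsRankOnePair A B) :
    IsDegenerateRootSet (inSup S) := by
  have hS := isRootSubgroupSet_inSup hcomm hne hconj fun A hA B hB =>
    (hpair A hA B hB).imp id Or.inl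
  rintro _ ⟨A, hA, rfl⟩ _ ⟨B, hB, rfl⟩ hc
  rcases hpair A hA B hB with h | h
  · have h0 := hS.ne_bot _ hc.1
    rw [map_commutator_subgroupOf (le_sup_of_mem hA) (le_sup_of_mem hB), h,
      Subgroup.bot_subgroupOf] at h0
    exact h0 rfl
  · exact Cfsg.Agent.RootSub.not_rankOne_of_commCase hS ⟨A, hA, rfl⟩ ⟨B, hB, rfl⟩ hc
      ((Cfsg.Agent.RootSub.isRankOnePair_subgroupOf (le_sup_of_mem hA) (le_sup_of_mem hB)).2 h)

theorem connected_inSup (hc : IsConnectedFamily (FAdj S) S) :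
    IsConnectedFamily (FAdj (inSup S)) (inSup S) := by
  rintro _ ⟨A, hA, rfl⟩ _ ⟨B, hB, rfl⟩
  induction hc A hA B hB with
  | refl => exact Relation.ReflTransGen.refl
  | @tail C D _ h ih =>
    exact (ih h.1).tail ⟨⟨C, h.1, rfl⟩, ⟨D, h.2.1, rfl⟩,
      (Cfsg.Agent.RootSub.isRankOnePair_subgroupOf (le_sup_of_mem h.1) (le_sup_of_mem h.2.1)).2 h.2.2⟩

theorem isRootSubgroupClass_inSup (hcomm : ∀ A ∈ S, IsMulCommutative A) (hne : ∀ A ∈ S, A ≠ ⊥)
    (hconj : ∀ A ∈ S, ∀ g : K, conjBy A g ∈ S)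
    (hpair : ∀ A ∈ S, ∀ B ∈ S, ⁅A, B⁆ = ⊥ ∨ IsRankOnePair A B ∨ RootCommutatorCase S A B)
    (hS : S.Nonempty) (hc : IsConnectedFamily (FAdj S) S) : IsRootSubgroupClass (inSup S) :=
  ⟨isRootSubgroupSet_inSup hcomm hne hconj hpair,
    isConjClass_of_connected (hS.image _) (connected_inSup hc)⟩

end Cfsg.Agent.RootTransv
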