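import Cfsg.Agent.RootTransv.Restrict
import Cfsg.Prelude.Def_Classical

/-!
Siegel transvection groups of singular lines of the hyperbolic quadratic space as root subgroups.
-/

set_option autoImplicit false

namespace Cfsg.Agent.RootTransv.Sie

open Matrix Cfsg Cfsg.Agent.RootSub.SL2Gen
open scoped Matrix

variable {F : Type*} [Field F] {N : ℕ}

set_option quotPrecheck false in
local notation "K" => ↥(Cfsg.isometryGroup F (Cfsg.quadFormPlus N F))

/-- the polar form -/
def B (x y : Fin N ⊕ Fin N → F) : F := (y ∘ Sum.swap) ⬝ᵥ x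

theorem B_eq_sum (x y : Fin N ⊕ Fin N → F) :
    B x y = ∑ i, (x (.inl i) * y (.inr i) + x (.inr i) * y (.inl i)) := by
  simp [B, dotProduct, Finset.sum_add_distrib, mul_comm]

theorem B_comm (x y : Fin N ⊕ Fin N → F) : B x y = B y x := by
  rw [B_eq_sum, B_eq_sum]
  exact Finset.sum_congr rfl fun i _ => by ring

theorem B_add_left (x y z : Fin N ⊕ Fin N → F) : B (x + y) z = B x z + B y z := dotProduct_add _ _ _

theorem B_smul_left (c : F) (x z : Fin N ⊕ Fin N → F) : B (c • x) z = c * B x z :=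
  dotProduct_smul c _ x

theorem B_sub_left (x y z : Fin N ⊕ Fin N → F) : B (x - y) z = B x z - B y z := dotProduct_sub _ _ _

theorem B_add_right (x y z : Fin N ⊕ Fin N → F) : B z (x + y) = B z x + B z y := by
  rw [B_comm, B_add_left, B_comm x, B_comm y]

theorem B_smul_right (c : F) (x z : Fin N ⊕ Fin N → F) : B z (c • x) = c * B z x := by
  rw [B_comm, B_smul_left, B_comm x]

theorem B_sub_right (x y z : Fin N ⊕ Fin N → F) : B z (x - y) = B z x - B z y := by
  rw [B_comm, B_sub_left, B_comm x, B_comm y]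

theorem B_neg_left (x z : Fin N ⊕ Fin N → F) : B (-x) z = -B x z := dotProduct_neg _ _

theorem B_zero_left (z : Fin N ⊕ Fin N → F) : B 0 z = 0 := dotProduct_zero _

theorem eq_zero_of_B {y : Fin N ⊕ Fin N → F} (h : ∀ x, B x y = 0) : y = 0 := by
  funext i
  simpa [B] using h (Pi.single (Sum.swap i) 1)

theorem Q_add (x y : Fin N ⊕ Fin N → F) :
    Cfsg.quadFormPlus N F (x + y) =
      Cfsg.quadFormPlus N F x + Cfsg.quadFormPlus N F y + B x y := by
  simp only [Cfsg.quadFormPlus, B_eq_sum, ← Finset.sum_add_distrib]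
  exact Finset.sum_congr rfl fun i _ => by simp only [Pi.add_apply]; ring

theorem Q_smul (c : F) (x : Fin N ⊕ Fin N → F) :
    Cfsg.quadFormPlus N F (c • x) = c * c * Cfsg.quadFormPlus N F x := by
  simp only [Cfsg.quadFormPlus, Finset.mul_sum]
  exact Finset.sum_congr rfl fun i _ => by simp only [Pi.smul_apply, smul_eq_mul]; ring

theorem B_self (x : Fin N ⊕ Fin N → F) :
    B x x = Cfsg.quadFormPlus N F x + Cfsg.quadFormPlus N F x := by
  rw [B_eq_sum, Cfsg.quadFormPlus, ← Finset.sum_add_distrib]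
  exact Finset.sum_congr rfl fun i _ => by ring

theorem B_self_zero {x : Fin N ⊕ Fin N → F} (h : Cfsg.quadFormPlus N F x = 0) : B x x = 0 := by
  rw [B_self, h, add_zero]

theorem ext_mulVec {g h : K} (e : ∀ x, g.1.1 *ᵥ x = h.1.1 *ᵥ x) : g = h :=
  Subtype.ext (Units.ext (Matrix.ext_of_mulVec_single fun i => e _))

theorem coe_mul_mulVec (g h : K) (x : Fin N ⊕ Fin N → F) :
    (g * h).1.1 *ᵥ x = g.1.1 *ᵥ (h.1.1 *ᵥ x) :=
  (Matrix.mulVec_mulVec x g.1.1 h.1.1).symm

theorem coe_one_mulVec (x : Fin N ⊕ Fin N → F) : (1 : K).1.1 *ᵥ x = x := Matrix.one_mulVec x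

theorem Q_app (g : K) (x : Fin N ⊕ Fin N → F) :
    Cfsg.quadFormPlus N F (g.1.1 *ᵥ x) = Cfsg.quadFormPlus N F x := g.2 x x

theorem B_app (g : K) (x y : Fin N ⊕ Fin N → F) : B (g.1.1 *ᵥ x) (g.1.1 *ᵥ y) = B x y := by
  have h := Q_app g (x + y)
  rw [Matrix.mulVec_add, Q_add, Q_add, Q_app, Q_app] at h
  exact add_left_cancel h

/-- `p, r` span a singular subspace -/
structure Line (p r : Fin N ⊕ Fin N → F) : Prop where
  hp : Cfsg.quadFormPlus N F p = 0
  hr : Cfsg.quadFormPlus N F r = 0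
  hpr : B p r = 0

/-- the matrix of the Siegel transformation -/
def mat (p r : Fin N ⊕ Fin N → F) (c : F) : Matrix (Fin N ⊕ Fin N) (Fin N ⊕ Fin N) F :=
  1 + Matrix.vecMulVec (c • p) (r ∘ Sum.swap) - Matrix.vecMulVec (c • r) (p ∘ Sum.swap)

theorem mat_mulVec (p r : Fin N ⊕ Fin N → F) (c : F) (x : Fin N ⊕ Fin N → F) :
    mat p r c *ᵥ x = x + (c * B x r) • p - (c * B x p) • r := by
  rw [mat, Matrix.sub_mulVec, Matrix.add_mulVec, Matrix.one_mulVec, Matrix.vecMulVec_mulVec,
    Matrix.vecMulVec_mulVec, op_smul_eq_smul, op_smul_eq_smul]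
  change x + B x r • c • p - B x p • c • r = _
  rw [smul_smul, smul_smul, mul_comm c, mul_comm c]

theorem mat_mul {p r : Fin N ⊕ Fin N → F} (h : Line p r) (c d : F) :
    mat p r c * mat p r d = mat p r (c + d) := by
  refine Matrix.ext_of_mulVec_single fun i => ?_
  rw [← Matrix.mulVec_mulVec, mat_mulVec, mat_mulVec, mat_mulVec]
  simp only [B_add_left, B_sub_left, B_smul_left, h.hpr, B_comm r p, B_self_zero h.hp,
    B_self_zero h.hr, mul_zero, add_zero, sub_zero]
  module

theorem mat_zero (p r : Fin N ⊕ Fin N → F) : mat p r (0 : F) = 1 := by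
  simp [mat]

theorem mat_Q {p r : Fin N ⊕ Fin N → F} (h : Line p r) (c : F) (x : Fin N ⊕ Fin N → F) :
    Cfsg.quadFormPlus N F (mat p r c *ᵥ x) = Cfsg.quadFormPlus N F x := by
  rw [mat_mulVec, sub_eq_add_neg, ← neg_smul, Q_add, Q_add, Q_smul, Q_smul]
  simp only [B_add_left, B_smul_left, B_smul_right, h.hpr, h.hp, h.hr]
  ring

/-- the Siegel transformation -/
def el {p r : Fin N ⊕ Fin N → F} (h : Line p r) (c : F) : K :=
  ⟨⟨mat p r c, mat p r (-c), by rw [mat_mul h, add_neg_cancel, mat_zero],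
    by rw [mat_mul h, neg_add_cancel, mat_zero]⟩, fun u _ => mat_Q h c u⟩

theorem el_mulVec {p r : Fin N ⊕ Fin N → F} (h : Line p r) (c : F) (x : Fin N ⊕ Fin N → F) :
    (el h c).1.1 *ᵥ x = x + (c * B x r) • p - (c * B x p) • r := mat_mulVec p r c x

theorem el_add {p r : Fin N ⊕ Fin N → F} (h : Line p r) (c d : F) :
    el h c * el h d = el h (c + d) := Subtype.ext (Units.ext (mat_mul h c d))

theorem el_zero {p r : Fin N ⊕ Fin N → F} (h : Line p r) : el h 0 = 1 :=
  Subtype.ext (Units.ext (mat_zero p r))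

theorem el_inv {p r : Fin N ⊕ Fin N → F} (h : Line p r) (c : F) : (el h c)⁻¹ = el h (-c) :=
  inv_eq_of_mul_eq_one_right (by rw [el_add, add_neg_cancel, el_zero])

theorem indep_iff {p r : Fin N ⊕ Fin N → F} :
    LinearIndependent F ![p, r] ↔ ∀ s t : F, s • p + t • r = 0 → s = 0 ∧ t = 0 :=
  LinearIndependent.pair_iff

theorem indep_left {p r : Fin N ⊕ Fin N → F} (hi : LinearIndependent F ![p, r]) : p ≠ 0 := fun h =>
  one_ne_zero (α := F) (indep_iff.1 hi 1 0 (by rw [h, smul_zero, zero_smul, add_zero])).1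

/-- dual vectors of a basis of a line -/
theorem exists_dual {p r : Fin N ⊕ Fin N → F} (hi : LinearIndependent F ![p, r]) :
    ∃ a b, B a p = 1 ∧ B a r = 0 ∧ B b p = 0 ∧ B b r = 1 := by
  have key : ∀ y : Fin N ⊕ Fin N → F, y ≠ 0 → ∃ x, B x y = 1 := fun y hy => by
    obtain ⟨x, hx⟩ := not_forall.1 fun h => hy (eq_zero_of_B h)
    exact ⟨(B x y)⁻¹ • x, by rw [B_smul_left, inv_mul_cancel₀ hx]⟩
  obtain ⟨u, hu⟩ := key p (indep_left hi)
  obtain ⟨v, hv⟩ := key (r - B u r • p) fun h => one_ne_zero (α := F)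
    (indep_iff.1 hi (-B u r) 1 (by rw [← h]; module)).2
  rw [B_sub_right, B_smul_right] at hv
  have hb : B (v - B v p • u) r = 1 := by
    rw [B_sub_left, B_smul_left]; linear_combination hv
  have hb0 : B (v - B v p • u) p = 0 := by
    rw [B_sub_left, B_smul_left, hu, mul_one, sub_self]
  refine ⟨u - B u r • (v - B v p • u), v - B v p • u, ?_, ?_, hb0, hb⟩
  · rw [B_sub_left, B_smul_left, hb0, mul_zero, sub_zero, hu]
  · rw [B_sub_left, B_smul_left, hb, mul_one, sub_self]

theorem el_eq_one {p r : Fin N ⊕ Fin N → F} (h : Line p r) (hi : LinearIndependent F ![p, r])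
    {c : F} (e : el h c = 1) : c = 0 := by
  obtain ⟨a, b, -, -, hbp, hbr⟩ := exists_dual hi
  have h1 := congrArg (fun g : K => g.1.1 *ᵥ b) e
  simp only [el_mulVec, coe_one_mulVec, hbp, hbr, mul_one, mul_zero, zero_smul, sub_zero,
    add_eq_left, smul_eq_zero] at h1
  exact h1.resolve_right (indep_left hi)

/-- the Siegel transvection group, as in the statement -/
def T (p r : Fin N ⊕ Fin N → F) : Subgroup K :=
  Subgroup.closure {σ : K | ∀ v : Fin N ⊕ Fin N → F,
    Cfsg.quadFormPlus N F (v + p) - Cfsg.quadFormPlus N F v - Cfsg.quadFormPlus N F p = 0 →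
    Cfsg.quadFormPlus N F (v + r) - Cfsg.quadFormPlus N F v - Cfsg.quadFormPlus N F r = 0 →
      ((σ : Matrix.GeneralLinearGroup (Fin N ⊕ Fin N) F) : Matrix (Fin N ⊕ Fin N) (Fin N ⊕ Fin N) F) *ᵥ v = v}

theorem polar_eq (v p : Fin N ⊕ Fin N → F) :
    Cfsg.quadFormPlus N F (v + p) - Cfsg.quadFormPlus N F v - Cfsg.quadFormPlus N F p = B v p := by
  rw [Q_add]; ring

theorem mem_T {p r : Fin N ⊕ Fin N → F} (h : Line p r) (hi : LinearIndependent F ![p, r]) {g : K} :
    g ∈ T p r ↔ ∃ c : F, g = el h c := by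
  constructor
  · intro hg
    induction hg using Subgroup.closure_induction with
    | mem g hg =>
      obtain ⟨a, b, hap, har, hbp, hbr⟩ := exists_dual hi
      have fix : ∀ z, B z p = 0 → B z r = 0 → g.1.1 *ᵥ z = z := fun z z1 z2 =>
        hg z (by rw [polar_eq, z1]) (by rw [polar_eq, z2])
      have perp : ∀ u, ∀ z, B z p = 0 → B z r = 0 → B (g.1.1 *ᵥ u - u) z = 0 := fun u z z1 z2 => by
        have h' := B_app g u z
        rw [fix z z1 z2] at h'
        rw [B_sub_left, h', sub_self]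
      have inℓ : ∀ u, g.1.1 *ᵥ u - u =
          B (g.1.1 *ᵥ u - u) a • p + B (g.1.1 *ᵥ u - u) b • r := fun u => by
        rw [← sub_eq_zero]
        apply eq_zero_of_B
        intro x
        set w := g.1.1 *ᵥ u - u
        have hz := perp u (x - B x p • a - B x r • b)
          (by simp only [B_sub_left, B_smul_left, hap, hbp]; ring)
          (by simp only [B_sub_left, B_smul_left, har, hbr]; ring)
        simp only [B_sub_right, B_smul_right] at hz
        simp only [B_sub_right, B_add_right, B_smul_right, B_comm x w]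
        linear_combination hz
      have ea := inℓ a
      have eb := inℓ b
      set s := B (g.1.1 *ᵥ a - a) a
      set t := B (g.1.1 *ᵥ a - a) b
      set u := B (g.1.1 *ᵥ b - b) a
      set v := B (g.1.1 *ᵥ b - b) b
      rw [sub_eq_iff_eq_add] at ea eb
      have hs : s = 0 := by
        have h' := Q_app g a
        rw [ea] at h'
        simp only [Q_add, Q_smul, B_add_left, B_smul_left, B_smul_right, h.hp, h.hr, h.hpr,
          B_comm p a, B_comm r a, hap, har] at h'
        linear_combination h'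
      have hv : v = 0 := by
        have h' := Q_app g b
        rw [eb] at h'
        simp only [Q_add, Q_smul, B_add_left, B_smul_left, B_smul_right, h.hp, h.hr, h.hpr,
          B_comm p b, B_comm r b, hbp, hbr] at h'
        linear_combination h'
      have htu : t + u = 0 := by
        have h' := B_app g a b
        rw [ea, eb] at h'
        simp only [B_add_left, B_add_right, B_smul_left, B_smul_right, h.hpr, B_comm r p,
          B_self_zero h.hp, B_self_zero h.hr, B_comm p b, B_comm r b, hap, har, hbp, hbr] at h'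
        linear_combination h'
      refine ⟨u, ext_mulVec fun x => ?_⟩
      have hfix := fix (x - B x p • a - B x r • b)
          (by simp only [B_sub_left, B_smul_left, hap, hbp]; ring)
          (by simp only [B_sub_left, B_smul_left, har, hbr]; ring)
      rw [Matrix.mulVec_sub, Matrix.mulVec_sub, Matrix.mulVec_smul, Matrix.mulVec_smul, ea, eb, hs,
        hv, show t = -u from eq_neg_of_add_eq_zero_left htu] at hfix
      rw [el_mulVec]
      linear_combination (norm := module) hfix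
    | one => exact ⟨0, (el_zero h).symm⟩
    | mul x y _ _ hx hy =>
      obtain ⟨c, rfl⟩ := hx; obtain ⟨d, rfl⟩ := hy
      exact ⟨c + d, el_add h c d⟩
    | inv x _ hx =>
      obtain ⟨c, rfl⟩ := hx
      exact ⟨-c, el_inv h c⟩
  · rintro ⟨c, rfl⟩
    refine Subgroup.subset_closure fun v h1 h2 => ?_
    rw [polar_eq] at h1 h2
    rw [el_mulVec, h1, h2, mul_zero, zero_smul, zero_smul, add_zero, sub_zero]

/-- the set of Siegel transvection groups -/
def S (F : Type*) [Field F] (N : ℕ) :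
    Set (Subgroup ↥(Cfsg.isometryGroup F (Cfsg.quadFormPlus N F))) :=
  {A | ∃ p r : Fin N ⊕ Fin N → F, LinearIndependent F ![p, r] ∧
    Cfsg.quadFormPlus N F p = 0 ∧ Cfsg.quadFormPlus N F r = 0 ∧
    Cfsg.quadFormPlus N F (p + r) = 0 ∧ A = T p r}

theorem mem_S {p r : Fin N ⊕ Fin N → F} (h : Line p r) (hi : LinearIndependent F ![p, r]) :
    T p r ∈ S F N :=
  ⟨p, r, hi, h.hp, h.hr, by rw [Q_add, h.hp, h.hr, h.hpr]; ring, rfl⟩

theorem line_of {p r : Fin N ⊕ Fin N → F} (h1 : Cfsg.quadFormPlus N F p = 0)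
    (h2 : Cfsg.quadFormPlus N F r = 0) (h3 : Cfsg.quadFormPlus N F (p + r) = 0) : Line p r :=
  ⟨h1, h2, by rwa [Q_add, h1, h2, zero_add, zero_add] at h3⟩

theorem S_comm : ∀ A ∈ S F N, IsMulCommutative A := by
  rintro _ ⟨p, r, hi, h1, h2, h3, rfl⟩
  exact ⟨⟨by
    rintro ⟨a, ha⟩ ⟨b, hb⟩
    obtain ⟨c, rfl⟩ := (mem_T (line_of h1 h2 h3) hi).1 ha
    obtain ⟨d, rfl⟩ := (mem_T (line_of h1 h2 h3) hi).1 hb
    exact Subtype.ext (by
      show el (line_of h1 h2 h3) c * el (line_of h1 h2 h3) d =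
        el (line_of h1 h2 h3) d * el (line_of h1 h2 h3) c
      rw [el_add, el_add, add_comm])⟩⟩

theorem S_ne_bot : ∀ A ∈ S F N, A ≠ ⊥ := by
  rintro _ ⟨p, r, hi, h1, h2, h3, rfl⟩ hb
  have h' : el (line_of h1 h2 h3) 1 ∈ T p r := (mem_T (line_of h1 h2 h3) hi).2 ⟨1, rfl⟩
  rw [hb, Subgroup.mem_bot] at h'
  exact one_ne_zero (el_eq_one _ hi h')

theorem el_conj (g : K) {p r : Fin N ⊕ Fin N → F} (h : Line p r)
    (h' : Line (g.1.1 *ᵥ p) (g.1.1 *ᵥ r)) (c : F) : g * el h c = el h' c * g :=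
  ext_mulVec fun x => by
    rw [coe_mul_mulVec, coe_mul_mulVec, el_mulVec, el_mulVec, B_app, B_app, Matrix.mulVec_sub,
      Matrix.mulVec_add, Matrix.mulVec_smul, Matrix.mulVec_smul]

theorem S_conj : ∀ A ∈ S F N, ∀ g : K, conjBy A g ∈ S F N := by
  rintro _ ⟨p, r, hi, h1, h2, h3, rfl⟩ g
  have h := line_of h1 h2 h3
  have h' : Line (g.1.1 *ᵥ p) (g.1.1 *ᵥ r) :=
    ⟨(Q_app g p).trans h1, (Q_app g r).trans h2, (B_app g p r).trans h.hpr⟩
  have hi' : LinearIndependent F ![g.1.1 *ᵥ p, g.1.1 *ᵥ r] := indep_iff.2 fun s t e => by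
    refine indep_iff.1 hi s t ?_
    have e' := congrArg (fun y => (g⁻¹).1.1 *ᵥ y) e
    simp only [← Matrix.mulVec_smul, ← Matrix.mulVec_add, Matrix.mulVec_zero] at e'
    rwa [← coe_mul_mulVec, inv_mul_cancel, coe_one_mulVec] at e'
  refine ⟨_, _, hi', h'.hp, h'.hr, by rw [Q_add, h'.hp, h'.hr, h'.hpr]; ring, ?_⟩
  ext x
  rw [Cfsg.Agent.RootSub.mem_conjBy, mem_T h hi, mem_T h' hi']
  refine exists_congr fun c => ?_
  rw [mul_assoc, inv_mul_eq_iff_eq_mul, el_conj g h h' c]
  exact mul_left_inj g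

theorem line_change {p r : Fin N ⊕ Fin N → F} (h : Line p r) (a b c d : F) :
    Line (a • p + b • r) (c • p + d • r) := by
  refine ⟨?_, ?_, ?_⟩
  · simp only [Q_add, Q_smul, B_smul_left, B_smul_right, h.hp, h.hr, h.hpr]; ring
  · simp only [Q_add, Q_smul, B_smul_left, B_smul_right, h.hp, h.hr, h.hpr]; ring
  · simp only [B_add_left, B_add_right, B_smul_left, B_smul_right, h.hpr, B_comm r p,
      B_self_zero h.hp, B_self_zero h.hr]
    ring

theorem indep_change {p r : Fin N ⊕ Fin N → F} (hi : LinearIndependent F ![p, r]) {a b c d : F}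
    (hD : a * d - b * c ≠ 0) : LinearIndependent F ![a • p + b • r, c • p + d • r] := by
  refine indep_iff.2 fun s t e => ?_
  obtain ⟨e1, e2⟩ := indep_iff.1 hi (s * a + t * c) (s * b + t * d) (by rw [← e]; module)
  refine ⟨(mul_eq_zero.1 (?_ : s * (a * d - b * c) = 0)).resolve_right hD,
    (mul_eq_zero.1 (?_ : t * (a * d - b * c) = 0)).resolve_right hD⟩
  · linear_combination d * e1 - c * e2
  · linear_combination a * e2 - b * e1

theorem T_change {p r : Fin N ⊕ Fin N → F} (h : Line p r) (hi : LinearIndependent F ![p, r])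
    {a b c d : F} (hD : a * d - b * c ≠ 0) :
    T (a • p + b • r) (c • p + d • r) = T p r := by
  have h' := line_change h a b c d
  have e : ∀ z, el h' z = el h (z * (a * d - b * c)) := fun z => ext_mulVec fun x => by
    rw [el_mulVec, el_mulVec]
    simp only [B_add_right, B_smul_right]
    module
  ext g
  rw [mem_T h hi, mem_T h' (indep_change hi hD)]
  constructor
  · rintro ⟨z, rfl⟩; exact ⟨_, e z⟩
  · rintro ⟨z, rfl⟩
    exact ⟨z / (a * d - b * c), by rw [e, div_mul_cancel₀ _ hD]⟩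

theorem commute_el {p r p' r' : Fin N ⊕ Fin N → F} (h : Line p r) (h' : Line p' r')
    (e₁ : B p p' = 0) (e₂ : B p r' = 0) (e₃ : B r p' = 0) (e₄ : B r r' = 0) (c d : F) :
    el h c * el h' d = el h' d * el h c := by
  apply ext_mulVec
  intro x
  simp only [coe_mul_mulVec, el_mulVec, B_add_left, B_sub_left, B_smul_left, e₁, e₂, e₃, e₄,
    B_comm p' p, B_comm p' r, B_comm r' p, B_comm r' r]
  module

theorem commute_bot {p r p' r' : Fin N ⊕ Fin N → F} (h : Line p r)
    (hi : LinearIndependent F ![p, r]) (h' : Line p' r') (hi' : LinearIndependent F ![p', r'])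
    (e₁ : B p p' = 0) (e₂ : B p r' = 0) (e₃ : B r p' = 0) (e₄ : B r r' = 0) :
    ⁅T p r, T p' r'⁆ = ⊥ := by
  rw [Cfsg.Agent.RootSub.commutator_eq_bot_iff_forall]
  intro a ha b hb
  obtain ⟨c, rfl⟩ := (mem_T h hi).1 ha
  obtain ⟨d, rfl⟩ := (mem_T h' hi').1 hb
  exact commute_el h h' e₁ e₂ e₃ e₄ c d

theorem comm_el {p r p' r' : Fin N ⊕ Fin N → F} (h : Line p r) (h' : Line p' r') (h'' : Line p' p)
    (e₁ : B p p' = 0) (e₂ : B p r' = 0) (e₃ : B r p' = 0) (e₄ : B r r' = 1) (c d : F) :
    el h c * el h' d * (el h c)⁻¹ * (el h' d)⁻¹ = el h'' (c * d) := by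
  rw [mul_inv_eq_iff_eq_mul, mul_inv_eq_iff_eq_mul]
  apply ext_mulVec
  intro x
  simp only [coe_mul_mulVec, el_mulVec, B_add_left, B_sub_left, B_smul_left, e₁, e₂, e₃, e₄,
    B_comm p' p, B_comm p' r, B_comm r' p, B_comm r' r, h.hpr, B_comm r p, h'.hpr, B_comm r' p',
    B_self_zero h.hp, B_self_zero h.hr, B_self_zero h'.hp, B_self_zero h'.hr]
  module

/-- the commutator case -/
theorem commCase {p r p' r' : Fin N ⊕ Fin N → F} (h : Line p r)
    (hi : LinearIndependent F ![p, r]) (h' : Line p' r') (hi' : LinearIndependent F ![p', r'])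
    (e₁ : B p p' = 0) (e₂ : B p r' = 0) (e₃ : B r p' = 0) (e₄ : B r r' = 1) :
    ⁅T p r, T p' r'⁆ = ⊥ ∨ RootCommutatorCase (S F N) (T p r) (T p' r') := by
  have h'' : Line p' p := ⟨h'.hp, h.hp, by rw [B_comm, e₁]⟩
  have key := comm_el h h' h'' e₁ e₂ e₃ e₄
  by_cases hi'' : LinearIndependent F ![p', p]
  · right
    have memz : ∀ z, el h'' z ∈ ⁅T p r, T p' r'⁆ := fun z => by
      have hm := Subgroup.commutator_mem_commutator
        ((mem_T h hi).2 ⟨z, rfl⟩ : el h z ∈ T p r) ((mem_T h' hi').2 ⟨1, rfl⟩ : el h' 1 ∈ T p' r')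
      rw [commutatorElement_def, key, mul_one] at hm
      exact hm
    have heq : ⁅T p r, T p' r'⁆ = T p' p := by
      refine le_antisymm (Subgroup.commutator_le.2 fun a ha b hb => ?_) fun g hg => ?_
      · obtain ⟨c, rfl⟩ := (mem_T h hi).1 ha
        obtain ⟨d, rfl⟩ := (mem_T h' hi').1 hb
        exact (mem_T h'' hi'').2 ⟨_, by rw [commutatorElement_def, key]⟩
      · obtain ⟨z, rfl⟩ := (mem_T h'' hi'').1 hg
        exact memz z
    refine ⟨heq ▸ mem_S h'' hi'', ?_, ?_, ?_⟩
    · intro x hx y hy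
      rw [heq] at hx
      obtain ⟨z, rfl⟩ := (mem_T h'' hi'').1 hx
      have hle : T p r ⊔ T p' r' ≤ Subgroup.centralizer {el h'' z} := by
        refine sup_le (fun a ha => ?_) (fun a ha => ?_)
        · obtain ⟨c, rfl⟩ := (mem_T h hi).1 ha
          rw [Subgroup.mem_centralizer_singleton_iff]
          exact (commute_el h h'' (by rw [e₁]) (by rw [B_self_zero h.hp]) (by rw [e₃])
            (by rw [B_comm, h.hpr]) c z)
        · obtain ⟨d, rfl⟩ := (mem_T h' hi').1 ha
          rw [Subgroup.mem_centralizer_singleton_iff]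
          exact (commute_el h' h'' (by rw [B_self_zero h'.hp]) (by rw [B_comm, e₁])
            (by rw [B_comm, h'.hpr]) (by rw [B_comm, e₂]) d z)
      exact (Subgroup.mem_centralizer_singleton_iff.1 (hle hy)).symm
    · intro a ha ha1
      obtain ⟨c, rfl⟩ := (mem_T h hi).1 ha
      have hc : c ≠ 0 := fun e => ha1 (by rw [e, el_zero])
      refine le_antisymm ((Subgroup.closure_le _).2 ?_) fun g hg => ?_
      · rintro _ ⟨b, hb, rfl⟩
        exact Subgroup.commutator_mem_commutator ha hb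
      · rw [heq] at hg
        obtain ⟨z, rfl⟩ := (mem_T h'' hi'').1 hg
        exact Subgroup.subset_closure ⟨el h' (z / c), (mem_T h' hi').2 ⟨_, rfl⟩,
          by simp only [key, mul_div_cancel₀ _ hc]⟩
    · intro b hb hb1
      obtain ⟨d, rfl⟩ := (mem_T h' hi').1 hb
      have hd : d ≠ 0 := fun e => hb1 (by rw [e, el_zero])
      refine le_antisymm ((Subgroup.closure_le _).2 ?_) fun g hg => ?_
      · rintro _ ⟨a, ha, rfl⟩
        exact Subgroup.commutator_mem_commutator ha hb
      · rw [heq] at hg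
        obtain ⟨z, rfl⟩ := (mem_T h'' hi'').1 hg
        exact Subgroup.subset_closure ⟨el h (z / d), (mem_T h hi).2 ⟨_, rfl⟩,
          by simp only [key, div_mul_cancel₀ _ hd]⟩
  · left
    rw [Cfsg.Agent.RootSub.commutator_eq_bot_iff_forall]
    intro a ha b hb
    obtain ⟨c, rfl⟩ := (mem_T h hi).1 ha
    obtain ⟨d, rfl⟩ := (mem_T h' hi').1 hb
    have h1 : el h'' (c * d) = 1 := by
      apply ext_mulVec
      intro x
      rw [el_mulVec, coe_one_mulVec]
      rw [indep_iff] at hi''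
      push Not at hi''
      obtain ⟨s, t, est, hst⟩ := hi''
      obtain ⟨k, rfl⟩ : ∃ k : F, p = k • p' := by
        by_cases ht : t = 0
        · rw [ht, zero_smul, add_zero, smul_eq_zero] at est
          exact absurd est (by
            rintro (hs | hs)
            · exact hst hs ht
            · exact indep_left hi' hs)
        · exact ⟨-s / t, by
            rw [div_eq_inv_mul, mul_smul, neg_smul, neg_eq_of_add_eq_zero_right est,
              smul_smul, inv_mul_cancel₀ ht, one_smul]⟩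
      simp only [B_smul_right]
      module
    have hcomm := key c d
    rw [h1, mul_inv_eq_one, mul_inv_eq_iff_eq_mul] at hcomm
    exact hcomm

/-- twisting an element of `SL₂` by `diag(1, -1)` -/
def tw (g : Matrix.SpecialLinearGroup (Fin 2) F) : Matrix.SpecialLinearGroup (Fin 2) F :=
  ⟨!![g 0 0, -g 0 1; -g 1 0, g 1 1], by
    have := g.2; rw [Matrix.det_fin_two] at this; rw [Matrix.det_fin_two_of]; linear_combination this⟩

@[simp] theorem coe_tw (g : Matrix.SpecialLinearGroup (Fin 2) F) :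
    ((tw g : Matrix.SpecialLinearGroup (Fin 2) F) : Matrix (Fin 2) (Fin 2) F) =
      !![g 0 0, -g 0 1; -g 1 0, g 1 1] := rfl

/-- the twist of `SL₂` by `diag(1, -1)` -/
def twist : Matrix.SpecialLinearGroup (Fin 2) F →* Matrix.SpecialLinearGroup (Fin 2) F where
  toFun := tw
  map_one' := by apply Cfsg.Agent.RootSub.SL2Gen.sl_ext <;> simp
  map_mul' g h := by
    apply Cfsg.Agent.RootSub.SL2Gen.sl_ext <;> simp [Matrix.mul_apply, Fin.sum_univ_two] <;> ring

theorem twist_apply (g : Matrix.SpecialLinearGroup (Fin 2) F) : twist g = tw g := rfl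

/-- opposite lines give an `SL₂` -/
theorem pairCase {p r p' r' : Fin N ⊕ Fin N → F} (h : Line p r)
    (hi : LinearIndependent F ![p, r]) (h' : Line p' r') (hi' : LinearIndependent F ![p', r'])
    (e₁ : B p p' = 1) (e₂ : B p r' = 0) (e₃ : B r p' = 0) (e₄ : B r r' = 1) :
    IsRankOnePair (T p r) (T p' r') ∧ IsPSL2PairOver F (T p r) (T p' r') := by
  have a₁ : (p' ∘ Sum.swap) ⬝ᵥ p = 1 := e₁
  have a₂ : (p' ∘ Sum.swap) ⬝ᵥ r' = 0 := (B_comm r' p').trans h'.hpr
  have a₃ : (r ∘ Sum.swap) ⬝ᵥ p = 0 := h.hpr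
  have a₄ : (r ∘ Sum.swap) ⬝ᵥ r' = 1 := (B_comm r' r).trans e₄
  have b₁ : (r' ∘ Sum.swap) ⬝ᵥ r = 1 := e₄
  have b₂ : (r' ∘ Sum.swap) ⬝ᵥ p' = 0 := h'.hpr
  have b₃ : (p ∘ Sum.swap) ⬝ᵥ r = 0 := (B_comm r p).trans h.hpr
  have b₄ : (p ∘ Sum.swap) ⬝ᵥ p' = 1 := (B_comm p' p).trans e₁
  set f₁ := pairHom p r' _ _ a₁ a₂ a₃ a₄
  set f₂ := (pairHom r p' _ _ b₁ b₂ b₃ b₄).comp twist
  have z1 : ∀ g x, (f₂ g).1 *ᵥ x = x +
      ((g 0 0 - 1) * B x r' + -g 0 1 * B x p) • r +
      (-g 1 0 * B x r' + (g 1 1 - 1) * B x p) • p' := fun g x =>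
    pairHom_mulVec b₁ b₂ b₃ b₄ (twist g) x
  have z2 : ∀ g x, (f₁ g).1 *ᵥ x = x +
      ((g 0 0 - 1) * B x p' + g 0 1 * B x r) • p +
      (g 1 0 * B x p' + (g 1 1 - 1) * B x r) • r' := fun g x =>
    pairHom_mulVec a₁ a₂ a₃ a₄ g x
  have hcomm : ∀ g g', Commute (f₁ g) (f₂ g') := fun g g' => by
    refine Subtype.ext (Matrix.ext_of_mulVec_single fun i => ?_)
    change ((f₁ g).1 * (f₂ g').1) *ᵥ _ = ((f₂ g').1 * (f₁ g).1) *ᵥ _
    rw [← Matrix.mulVec_mulVec, ← Matrix.mulVec_mulVec]
    simp only [z1, z2, B_add_left, B_smul_left, e₂, e₃, B_comm r' p, B_comm r' r', B_comm p' r,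
      h.hpr, B_comm r p, h'.hpr, B_comm r' p', B_self_zero h.hp, B_self_zero h.hr,
      B_self_zero h'.hp, B_self_zero h'.hr]
    module
  let f : Matrix.SpecialLinearGroup (Fin 2) F →* Matrix.GeneralLinearGroup (Fin N ⊕ Fin N) F :=
    Matrix.SpecialLinearGroup.toGL.comp
      { toFun := fun g => f₁ g * f₂ g
        map_one' := by simp
        map_mul' := fun g g' => by rw [map_mul, map_mul]; exact (hcomm g' g).mul_mul_mul_comm _ _ }
  have fval : ∀ g x, (f g).1 *ᵥ x = (f₁ g).1 *ᵥ ((f₂ g).1 *ᵥ x) := fun g x =>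
    (Matrix.mulVec_mulVec x _ _).symm
  have eu : ∀ c, f (uu c) = (el h c).1 := fun c => by
    refine Units.ext (Matrix.ext_of_mulVec_single fun i => ?_)
    rw [fval, el_mulVec, z2, z1]
    simp [B_add_left, B_neg_left, B_smul_left, e₃, h.hpr, B_comm r p, B_self_zero h.hr]
    module
  have ev : ∀ c, f (vv c) = (el h' (-c)).1 := fun c => by
    refine Units.ext (Matrix.ext_of_mulVec_single fun i => ?_)
    rw [fval, el_mulVec, z2, z1]
    simp [B_add_left, B_neg_left, B_smul_left, B_self_zero h'.hp]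
  have hmem : ∀ g, f g ∈ Cfsg.isometryGroup F (Cfsg.quadFormPlus N F) := fun g =>
    Cfsg.Agent.Linear.transvection_induction
      (fun y => f y ∈ Cfsg.isometryGroup F (Cfsg.quadFormPlus N F))
      (fun i j hij c => by
        fin_cases i <;> fin_cases j
        · exact absurd rfl hij
        · rw [show Matrix.SpecialLinearGroup.transvection hij c = uu c by
            apply Cfsg.Agent.RootSub.SL2Gen.sl_ext <;>
              simp [Matrix.SpecialLinearGroup.transvection_coe], eu]
          exact (el h c).2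
        · rw [show Matrix.SpecialLinearGroup.transvection hij c = vv c by
            apply Cfsg.Agent.RootSub.SL2Gen.sl_ext <;>
              simp [Matrix.SpecialLinearGroup.transvection_coe], ev]
          exact (el h' _).2
        · exact absurd rfl hij)
      (fun x y hx hy => by rw [map_mul]; exact mul_mem hx hy) g
  let φ := f.codRestrict (Cfsg.isometryGroup F (Cfsg.quadFormPlus N F)) hmem
  have hU : (upperUnipotentSL2 F).map φ = T p r := by
    ext x
    rw [mem_T h hi]
    constructor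
    · rintro ⟨y, hy, rfl⟩
      obtain ⟨c, rfl⟩ := mem_upper.1 hy
      exact ⟨_, Subtype.ext (eu c)⟩
    · rintro ⟨c, rfl⟩
      exact ⟨uu c, mem_upper.2 ⟨_, rfl⟩, Subtype.ext (eu c)⟩
  have hV : (lowerUnipotentSL2 F).map φ = T p' r' := by
    ext x
    rw [mem_T h' hi']
    constructor
    · rintro ⟨y, hy, rfl⟩
      obtain ⟨c, rfl⟩ := mem_lower.1 hy
      exact ⟨_, Subtype.ext (ev c)⟩
    · rintro ⟨c, rfl⟩
      exact ⟨vv (-c), mem_lower.2 ⟨_, rfl⟩,
        Subtype.ext (show f (vv (-c)) = (el h' c).1 by rw [ev, neg_neg])⟩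
  have := pair_of_hom φ (by
    have hinj : Function.Injective φ := (injective_iff_map_eq_one φ).2 fun g hg => by
      have e : ∀ x, (f₁ g).1 *ᵥ ((f₂ g).1 *ᵥ x) = x := fun x => by
        rw [← fval, show f g = 1 from congrArg Subtype.val hg]
        exact Matrix.one_mulVec x
      have ep := e p
      have er := e r'
      simp only [z1, z2, B_add_left, B_smul_left, e₁, e₂, e₃, e₄, B_self_zero h.hp,
        B_self_zero h'.hr, B_comm r' p, B_comm r' r, h.hpr, B_comm r p, h'.hpr, B_comm r' p',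
        B_comm p' r, mul_zero, zero_smul, add_zero, zero_add, mul_one] at ep er
      have c1 := congrArg (fun y => B y p') ep
      have c2 := congrArg (fun y => B y r) ep
      have c3 := congrArg (fun y => B y p') er
      have c4 := congrArg (fun y => B y r) er
      simp only [B_add_left, B_smul_left, e₁, e₂, e₃, e₄, B_comm r' r, B_comm r' p', h.hpr,
        h'.hpr, mul_zero, add_zero, zero_add, mul_one] at c1 c2 c3 c4
      apply Cfsg.Agent.RootSub.SL2Gen.sl_ext <;>
        simp only [Matrix.SpecialLinearGroup.coe_one, Matrix.one_apply_eq,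
          Matrix.one_apply_ne (show (0 : Fin 2) ≠ 1 by decide),
          Matrix.one_apply_ne (show (1 : Fin 2) ≠ 0 by decide)]
      · linear_combination c1
      · linear_combination c3
      · linear_combination c2
      · linear_combination c4
    rw [(MonoidHom.ker_eq_bot_iff φ).2 hinj]; exact bot_le)
  rwa [hU, hV] at this

/-- opposite lines in any bases -/
theorem pair_of_det {p r p' r' : Fin N ⊕ Fin N → F} (h : Line p r)
    (hi : LinearIndependent F ![p, r]) (h' : Line p' r') (hi' : LinearIndependent F ![p', r'])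
    (hD : B p p' * B r r' - B p r' * B r p' ≠ 0) :
    IsRankOnePair (T p r) (T p' r') ∧ IsPSL2PairOver F (T p r) (T p' r') := by
  set D := B p p' * B r r' - B p r' * B r p' with hDd
  have hd' : B r r' / D * (B p p' / D) - -B r p' / D * (-B p r' / D) = D⁻¹ := by
    rw [hDd] at hD ⊢
    field_simp
  rw [← T_change h' hi' (by rw [hd']; exact inv_ne_zero hD)]
  refine pairCase h hi (line_change h' _ _ _ _)
    (indep_change hi' (by rw [hd']; exact inv_ne_zero hD)) ?_ ?_ ?_ ?_
  all_goals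
    simp only [B_add_right, B_smul_right]
    field_simp
    ring

theorem comm_of_det {p r p' r' : Fin N ⊕ Fin N → F} (h : Line p r)
    (hi : LinearIndependent F ![p, r]) (h' : Line p' r') (hi' : LinearIndependent F ![p', r'])
    (hD : B p p' * B r r' - B p r' * B r p' = 0) (h22 : B r r' ≠ 0) :
    ⁅T p r, T p' r'⁆ = ⊥ ∨ RootCommutatorCase (S F N) (T p r) (T p' r') := by
  have h1 : (1 : F) * 1 - -(B p r' / B r r') * 0 ≠ 0 := by simp
  have h2 : (1 : F) * (B r r')⁻¹ - -(B r p' / B r r') * 0 ≠ 0 := by simp [h22]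
  rw [← T_change h hi h1, ← T_change h' hi' h2]
  refine commCase (line_change h _ _ _ _) (indep_change hi h1) (line_change h' _ _ _ _)
    (indep_change hi' h2) ?_ ?_ ?_ ?_
  all_goals
    simp only [B_add_right, B_smul_right, B_add_left, B_smul_left]
    field_simp
  · linear_combination hD
  all_goals ring

theorem T_swap {p r : Fin N ⊕ Fin N → F} (h : Line p r) (hi : LinearIndependent F ![p, r]) :
    T r p = T p r := by
  have e := T_change h hi (a := 0) (b := 1) (c := 1) (d := 0) (by simp)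
  rwa [zero_smul, zero_smul, one_smul, one_smul, zero_add, add_zero] at e

theorem S_pair : ∀ A ∈ S F N, ∀ C ∈ S F N, ⁅A, C⁆ = ⊥ ∨
    (IsRankOnePair A C ∧ IsPSL2PairOver F A C) ∨ RootCommutatorCase (S F N) A C := by
  rintro _ ⟨p, r, hi, a1, a2, a3, rfl⟩ _ ⟨p', r', hi', b1, b2, b3, rfl⟩
  have h := line_of a1 a2 a3
  have h' := line_of b1 b2 b3
  by_cases hD : B p p' * B r r' - B p r' * B r p' = 0
  · have hsw : Line r p := ⟨h.hr, h.hp, by rw [B_comm, h.hpr]⟩
    have hsw' : Line r' p' := ⟨h'.hr, h'.hp, by rw [B_comm, h'.hpr]⟩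
    have his := LinearIndependent.pair_symm_iff.1 hi
    have his' := LinearIndependent.pair_symm_iff.1 hi'
    by_cases h22 : B r r' = 0
    · by_cases h21 : B r p' = 0
      · by_cases h12 : B p r' = 0
        · by_cases h11 : B p p' = 0
          · exact Or.inl (commute_bot h hi h' hi' h11 h12 h21 h22)
          · rw [← T_swap h hi, ← T_swap h' hi']
            exact (comm_of_det hsw his hsw' his' (by linear_combination hD) h11).imp id Or.inr
        · rw [← T_swap h hi]
          exact (comm_of_det hsw his h' hi' (by linear_combination -hD) h12).imp id Or.inr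
      · rw [← T_swap h' hi']
        exact (comm_of_det h hi hsw' his' (by linear_combination -hD) h21).imp id Or.inr
    · exact (comm_of_det h hi h' hi' hD h22).imp id Or.inr
  · exact Or.inr (Or.inl (pair_of_det h hi h' hi' hD))

end Cfsg.Agent.RootTransv.Sie
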