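import Cfsg.Agent.RootTransv.Siegel

/-!
The graph of opposite singular lines of the hyperbolic quadratic space is connected.
-/

set_option autoImplicit false

namespace Cfsg.Agent.RootTransv.Sie

open Matrix Cfsg
open scoped Matrix

variable {F : Type*} [Field F] {N : ℕ}

theorem exists_partner {r : Fin N ⊕ Fin N → F} (hr : Cfsg.quadFormPlus N F r = 0) (h0 : r ≠ 0) :
    ∃ s, Cfsg.quadFormPlus N F s = 0 ∧ B s r = 1 := by
  obtain ⟨x, hx⟩ := not_forall.1 fun h => h0 (eq_zero_of_B h)
  obtain ⟨y, hy⟩ : ∃ y, B y r = 1 := ⟨(B x r)⁻¹ • x, by rw [B_smul_left, inv_mul_cancel₀ hx]⟩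
  refine ⟨y - Cfsg.quadFormPlus N F y • r, ?_, ?_⟩
  · rw [sub_eq_add_neg, ← neg_smul, Q_add, Q_smul, B_smul_right, hr, hy]; ring
  · rw [B_sub_left, B_smul_left, B_self_zero hr, hy, mul_zero, sub_zero]

/-- a singular partner inside the complement of a hyperbolic plane -/
theorem exists_partner' {p a r : Fin N ⊕ Fin N → F} (hp : Cfsg.quadFormPlus N F p = 0)
    (ha : Cfsg.quadFormPlus N F a = 0) (hpa : B p a = 1) (hr : Cfsg.quadFormPlus N F r = 0)
    (hrp : B r p = 0) (hra : B r a = 0) (h0 : r ≠ 0) :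
    ∃ s, Cfsg.quadFormPlus N F s = 0 ∧ B s p = 0 ∧ B s a = 0 ∧ B s r = 1 := by
  obtain ⟨x, hx⟩ := not_forall.1 fun h => h0 (eq_zero_of_B h)
  obtain ⟨y, hy⟩ : ∃ y, B y r = 1 := ⟨(B x r)⁻¹ • x, by rw [B_smul_left, inv_mul_cancel₀ hx]⟩
  set z := y - B y a • p - B y p • a
  have hzp : B z p = 0 := by
    simp only [z, B_sub_left, B_smul_left, B_self_zero hp, B_comm a p, hpa]; ring
  have hza : B z a = 0 := by
    simp only [z, B_sub_left, B_smul_left, B_self_zero ha, hpa]; ring
  have hzr : B z r = 1 := by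
    simp only [z, B_sub_left, B_smul_left, B_comm p r, B_comm a r, hrp, hra, hy]; ring
  refine ⟨z - Cfsg.quadFormPlus N F z • r, ?_, ?_, ?_, ?_⟩
  · rw [sub_eq_add_neg, ← neg_smul, Q_add, Q_smul, B_smul_right, hr, hzr]; ring
  · rw [B_sub_left, B_smul_left, hzp, hrp, mul_zero, sub_zero]
  · rw [B_sub_left, B_smul_left, hza, hra, mul_zero, sub_zero]
  · rw [B_sub_left, B_smul_left, B_self_zero hr, hzr, mul_zero, sub_zero]

theorem exists_common (hN : 3 ≤ N) {p a r r' : Fin N ⊕ Fin N → F}
    (hp : Cfsg.quadFormPlus N F p = 0)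
    (ha : Cfsg.quadFormPlus N F a = 0) (hpa : B p a = 1) (hr : Cfsg.quadFormPlus N F r = 0)
    (hrp : B r p = 0) (hra : B r a = 0) (h0 : r ≠ 0) (hr' : Cfsg.quadFormPlus N F r' = 0)
    (hrp' : B r' p = 0) (hra' : B r' a = 0) (h0' : r' ≠ 0) :
    ∃ b, Cfsg.quadFormPlus N F b = 0 ∧ B b p = 0 ∧ B b a = 0 ∧ B b r ≠ 0 ∧ B b r' ≠ 0 := by
  by_cases hk : B r r' = 0
  · obtain ⟨s, hs, hsp, hsa, hsr⟩ := exists_partner' hp ha hpa hr hrp hra h0
    by_cases h1 : B s r' = 0
    · obtain ⟨t, ht, htp, hta, htr⟩ := exists_partner' hp ha hpa hr' hrp' hra' h0'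
      by_cases h2 : B t r = 0
      · refine ⟨s + (t - B t s • r), ?_, ?_, ?_, ?_, ?_⟩
        · simp only [sub_eq_add_neg, ← neg_smul, Q_add, Q_smul, B_add_right, B_smul_right, hs, ht,
            hr, h2, hsr, B_comm s t]
          ring
        · simp only [B_add_left, B_sub_left, B_smul_left, hsp, htp, hrp]; ring
        · simp only [B_add_left, B_sub_left, B_smul_left, hsa, hta, hra]; ring
        · simp only [B_add_left, B_sub_left, B_smul_left, hsr, h2, B_self_zero hr]; simp
        · simp only [B_add_left, B_sub_left, B_smul_left, h1, htr, hk]; simp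
      · exact ⟨t, ht, htp, hta, h2, by rw [htr]; exact one_ne_zero⟩
    · exact ⟨s, hs, hsp, hsa, by rw [hsr]; exact one_ne_zero, h1⟩
  · obtain ⟨r'', hr''d⟩ : ∃ r'', r'' = (B r r')⁻¹ • r' := ⟨_, rfl⟩
    have hk1 : B r r'' = 1 := by rw [hr''d, B_smul_right, inv_mul_cancel₀ hk]
    have hr'' : Cfsg.quadFormPlus N F r'' = 0 := by rw [hr''d, Q_smul, hr', mul_zero]
    have hp'' : B r'' p = 0 := by rw [hr''d, B_smul_left, hrp', mul_zero]
    have ha'' : B r'' a = 0 := by rw [hr''d, B_smul_left, hra', mul_zero]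
    obtain ⟨z, hzp, hza, hzr, hzr', hz⟩ : ∃ z, B z p = 0 ∧ B z a = 0 ∧ B z r = 0 ∧ B z r'' = 0 ∧
        Cfsg.quadFormPlus N F z ≠ 0 := by
      by_contra! hno
      let π : (Fin N ⊕ Fin N → F) → (Fin N ⊕ Fin N → F) := fun x =>
        x - B x a • p - B x p • a - B x r'' • r - B x r • r''
      have hπp : ∀ x, B (π x) p = 0 := fun x => by
        simp only [π, B_sub_left, B_smul_left, B_self_zero hp, B_comm a p, hpa, hrp, hp'']; ring
      have hπa : ∀ x, B (π x) a = 0 := fun x => by
        simp only [π, B_sub_left, B_smul_left, B_self_zero ha, hpa, hra, ha'']; ring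
      have hπr : ∀ x, B (π x) r = 0 := fun x => by
        simp only [π, B_sub_left, B_smul_left, B_self_zero hr, B_comm p r, B_comm a r, hrp, hra,
          B_comm r'' r, hk1]; ring
      have hπr' : ∀ x, B (π x) r'' = 0 := fun x => by
        simp only [π, B_sub_left, B_smul_left, B_self_zero hr'', B_comm p r'', B_comm a r'', hp'',
          ha'', hk1]; ring
      have h0π : ∀ x, π x = 0 := fun x => eq_zero_of_B fun y => by
        have e1 := hno (π x + π y) (by rw [B_add_left, hπp, hπp, add_zero])
          (by rw [B_add_left, hπa, hπa, add_zero]) (by rw [B_add_left, hπr, hπr, add_zero])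
          (by rw [B_add_left, hπr', hπr', add_zero])
        rw [Q_add, hno (π x) (hπp x) (hπa x) (hπr x) (hπr' x),
          hno (π y) (hπp y) (hπa y) (hπr y) (hπr' y), zero_add, zero_add] at e1
        have e2 : B (π x) (π y) = B (π x) y := by
          show B (π x) (y - B y a • p - B y p • a - B y r'' • r - B y r • r'') = _
          simp only [B_sub_right, B_smul_right, hπp, hπa, hπr, hπr']; ring
        rw [B_comm, ← e2, e1]
      let L : (Fin N ⊕ Fin N → F) →ₗ[F] (Fin 4 → F) :=
        { toFun := fun x => ![B x a, B x p, B x r'', B x r]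
          map_add' := fun x y => by ext i; fin_cases i <;> simp [B_add_left]
          map_smul' := fun c x => by ext i; fin_cases i <;> simp [B_smul_left] }
      have hL : Function.Injective L := (injective_iff_map_eq_zero L).2 fun x hx => by
        have e0 : B x a = 0 := congrFun hx 0
        have e1 : B x p = 0 := congrFun hx 1
        have e2 : B x r'' = 0 := congrFun hx 2
        have e3 : B x r = 0 := congrFun hx 3
        have := h0π x
        simpa [π, e0, e1, e2, e3] using this
      have := LinearMap.finrank_le_finrank_of_injective hL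
      simp at this
      omega
    refine ⟨(-Cfsg.quadFormPlus N F z) • r + r'' + z, ?_, ?_, ?_, ?_, ?_⟩
    · simp only [Q_add, Q_smul, B_add_left, B_smul_left, hr, hr'', hk1, B_comm r z, B_comm r'' z,
        hzr, hzr']
      ring
    · simp only [B_add_left, B_smul_left, hrp, hp'', hzp]; ring
    · simp only [B_add_left, B_smul_left, hra, ha'', hza]; ring
    · simp only [B_add_left, B_smul_left, B_self_zero hr, B_comm r'' r, hk1, hzr]; simp
    · have e : B ((-Cfsg.quadFormPlus N F z) • r + r'' + z) r'' = -Cfsg.quadFormPlus N F z := by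
        simp only [B_add_left, B_smul_left, B_self_zero hr'', hk1, hzr']; ring
      intro h
      rw [hr''d] at e h
      rw [B_smul_right, h, mul_zero] at e
      exact hz (neg_eq_zero.1 e.symm)

theorem adj {p r p' r' : Fin N ⊕ Fin N → F} (h : Line p r) (hi : LinearIndependent F ![p, r])
    (h' : Line p' r') (hi' : LinearIndependent F ![p', r'])
    (hD : B p p' * B r r' - B p r' * B r p' ≠ 0) : FAdj (S F N) (T p r) (T p' r') :=
  ⟨mem_S h hi, mem_S h' hi', (pair_of_det h hi h' hi' hD).1⟩

/-- two lines through a point -/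
theorem conn_point (hN : 3 ≤ N) {p r r' : Fin N ⊕ Fin N → F} (h : Line p r)
    (hi : LinearIndependent F ![p, r]) (h' : Line p r') (hi' : LinearIndependent F ![p, r']) :
    Relation.ReflTransGen (FAdj (S F N)) (T p r) (T p r') := by
  obtain ⟨a, ha, hap⟩ := exists_partner h.hp (indep_left hi)
  have hpa : B p a = 1 := by rw [B_comm, hap]
  have key : ∀ {r : Fin N ⊕ Fin N → F}, Line p r → LinearIndependent F ![p, r] →
      Cfsg.quadFormPlus N F (r - B r a • p) = 0 ∧ B (r - B r a • p) p = 0 ∧
      B (r - B r a • p) a = 0 ∧ r - B r a • p ≠ 0 := fun {r} h hi => by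
    refine ⟨?_, ?_, ?_, fun e => one_ne_zero (α := F)
      (indep_iff.1 hi (-B r a) 1 (by rw [← e]; module)).2⟩
    · rw [sub_eq_add_neg, ← neg_smul, Q_add, Q_smul, B_smul_right, h.hr, h.hp, B_comm r p, h.hpr]
      ring
    · rw [B_sub_left, B_smul_left, B_self_zero h.hp, B_comm r p, h.hpr]; ring
    · rw [B_sub_left, B_smul_left, hpa]; ring
  obtain ⟨k1, k2, k3, k4⟩ := key h hi
  obtain ⟨l1, l2, l3, l4⟩ := key h' hi'
  obtain ⟨b, hb, hbp, hba, hb1, hb2⟩ := exists_common hN h.hp ha hpa k1 k2 k3 k4 l1 l2 l3 l4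
  simp only [B_sub_right, B_smul_right, hbp, mul_zero, sub_zero] at hb1 hb2
  have hab : Line a b := ⟨ha, hb, by rw [B_comm, hba]⟩
  have hb0 : b ≠ 0 := fun e => hb1 (by rw [e, B_zero_left])
  have hiab : LinearIndependent F ![a, b] := indep_iff.2 fun s t e => by
    have e1 := congrArg (fun y => B y p) e
    simp only [B_add_left, B_smul_left, hap, hbp, B_zero_left, mul_one, mul_zero, add_zero] at e1
    exact ⟨e1, (smul_eq_zero.1 (by rw [← e, e1]; module : t • b = 0)).resolve_right hb0⟩
  have hbp' : B p b = 0 := by rw [B_comm, hbp]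
  exact (Relation.ReflTransGen.single (adj h hi hab hiab
      (by rw [hpa, hbp', zero_mul, sub_zero, one_mul, B_comm]; exact hb1))).tail
    (adj hab hiab h' hi' (by rw [hap, hbp, mul_zero, sub_zero, one_mul]; exact hb2))

theorem connected (hN : 3 ≤ N) : IsConnectedFamily (FAdj (S F N)) (S F N) := by
  rintro _ ⟨p, r, hi, a1, a2, a3, rfl⟩ _ ⟨p', r', hi', b1, b2, b3, rfl⟩
  have h := line_of a1 a2 a3
  have h' := line_of b1 b2 b3
  by_cases hl : LinearIndependent F ![p, p']
  · by_cases hpp : B p p' = 0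
    · have hm : Line p p' := ⟨a1, b1, hpp⟩
      have hm' : Line p' p := ⟨b1, a1, by rw [B_comm, hpp]⟩
      refine (conn_point hN h hi hm hl).trans ?_
      rw [← T_swap hm hl]
      exact conn_point hN hm' (LinearIndependent.pair_symm_iff.1 hl) h' hi'
    · let L : (Fin N → F) →ₗ[F] (Fin 2 → F) :=
        { toFun := fun x => ![B (Sum.elim x 0) p, B (Sum.elim x 0) p']
          map_add' := fun x y => by
            have e : Sum.elim (x + y) (0 : Fin N → F) = Sum.elim x 0 + Sum.elim y 0 := by
              ext (i | i) <;> simp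
            ext i; fin_cases i <;> simp [e, B_add_left]
          map_smul' := fun c x => by
            have e : Sum.elim (c • x) (0 : Fin N → F) = c • Sum.elim x 0 := by
              ext (i | i) <;> simp
            ext i; fin_cases i <;> simp [e, B_smul_left] }
      obtain ⟨x, hx, hx0⟩ : ∃ x, L x = 0 ∧ x ≠ 0 := by
        by_contra! hno
        have := LinearMap.finrank_le_finrank_of_injective
          ((injective_iff_map_eq_zero L).2 fun x hx => hno x hx)
        simp at this
        omega
      set z : Fin N ⊕ Fin N → F := Sum.elim x 0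
      have hzp : B z p = 0 := congrFun hx 0
      have hzp' : B z p' = 0 := congrFun hx 1
      have hz : Cfsg.quadFormPlus N F z = 0 := by simp [z, Cfsg.quadFormPlus]
      have hz0 : z ≠ 0 := fun e => hx0 (funext fun i => congrFun e (.inl i))
      have ind : ∀ u v : Fin N ⊕ Fin N → F, B z v = 0 → B u v ≠ 0 →
          LinearIndependent F ![u, z] := fun u v hv huv => indep_iff.2 fun s t e => by
        have e1 := congrArg (fun y => B y v) e
        simp only [B_add_left, B_smul_left, hv, B_zero_left, mul_zero, add_zero, mul_eq_zero,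
          huv, or_false] at e1
        exact ⟨e1, (smul_eq_zero.1 (by rw [← e, e1]; module : t • z = 0)).resolve_right hz0⟩
      have i1 := ind p p' hzp' hpp
      have i2 := ind p' p hzp (by rwa [B_comm])
      have m1 : Line p z := ⟨a1, hz, by rw [B_comm, hzp]⟩
      have m2 : Line p' z := ⟨b1, hz, by rw [B_comm, hzp']⟩
      have m1' : Line z p := ⟨hz, a1, hzp⟩
      have m2' : Line z p' := ⟨hz, b1, hzp'⟩
      refine (conn_point hN h hi m1 i1).trans (Relation.ReflTransGen.trans ?_
        (conn_point hN m2 i2 h' hi'))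
      rw [← T_swap m1 i1, ← T_swap m2 i2]
      exact conn_point hN m1' (LinearIndependent.pair_symm_iff.1 i1) m2'
        (LinearIndependent.pair_symm_iff.1 i2)
  · obtain ⟨k, hk⟩ : ∃ k : F, k • p = p' := by
      by_contra! hno
      exact hl ((LinearIndependent.pair_iff' (indep_left hi)).2 hno)
    have hk0 : k ≠ 0 := fun e => indep_left hi' (by rw [← hk, e, zero_smul])
    have hq : Line p r' := ⟨a1, b2, by
      have := h'.hpr
      rw [← hk, B_smul_left] at this
      exact (mul_eq_zero.1 this).resolve_left hk0⟩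
    have hiq : LinearIndependent F ![p, r'] := indep_iff.2 fun s t e => by
      obtain ⟨e1, e2⟩ := indep_iff.1 hi' (s / k) t (by rw [← hk, smul_smul, div_mul_cancel₀ _ hk0, e])
      exact ⟨(div_eq_zero_iff.1 e1).resolve_right hk0, e2⟩
    have e := T_change hq hiq (a := k) (b := 0) (c := 0) (d := 1) (by simpa using hk0)
    rw [hk, zero_smul, zero_smul, one_smul, add_zero, zero_add] at e
    rw [e]
    exact conn_point hN h hi hq hiq

end Cfsg.Agent.RootTransv.Sie
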