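import Cfsg.Agent.RootTransv.Common
import Cfsg.Agent.Forms.SympGen
import Cfsg.Agent.Forms.SympPrimitive

/-!
The symplectic transvection groups form a degenerate class of abstract root subgroups.
-/

set_option autoImplicit false

namespace Cfsg.Agent.RootTransv.Symp

open Matrix Cfsg Cfsg.Agent.RootSub.SL2Gen Cfsg.Agent.Forms
open scoped Matrix

variable {F : Type*} [Field F] {m : ℕ}

set_option quotPrecheck false in
local notation "Sp" => ↥(Matrix.symplecticGroup (Fin m) F)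
local notation "V" => (Fin m ⊕ Fin m → F)

/-- the transvection with centre `p` -/
def tr (p : V) (c : F) : Sp := ⟨Cfsg.sympTransvection m p c, sympTransvection_mem p c⟩

theorem ext_mulVec {g h : Sp} (e : ∀ x : V, g.1 *ᵥ x = h.1 *ᵥ x) : g = h :=
  Subtype.ext (Matrix.ext_of_mulVec_single fun i => e _)

theorem tr_mulVec (p : V) (c : F) (x : V) :
    (tr p c).1 *ᵥ x = x + (c * sympForm m F x p) • p := sympTransvection_mulVec p c x

theorem tr_add (p : V) (c d : F) : tr p (c + d) = tr p c * tr p d :=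
  Subtype.ext (sympTransvection_mul p c d).symm

theorem tr_zero (p : V) : tr p 0 = 1 :=
  ext_mulVec fun x => by rw [tr_mulVec, zero_mul, zero_smul, add_zero, Submonoid.coe_one, one_mulVec]

theorem tr_inv (p : V) (c : F) : (tr p c)⁻¹ = tr p (-c) :=
  inv_eq_of_mul_eq_one_right (by rw [← tr_add, add_neg_cancel, tr_zero])

theorem tr_eq_one {p : V} (hp : p ≠ 0) {c : F} (e : tr p c = 1) : c = 0 := by
  obtain ⟨x, hx⟩ := exists_sympForm_eq_one hp
  have h := congrArg (fun g : Sp => g.1 *ᵥ x) e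
  simp only [tr_mulVec, Submonoid.coe_one, one_mulVec, add_eq_left, smul_eq_zero, mul_eq_zero] at h
  have hx' : sympForm m F x p ≠ 0 := by
    rw [sympForm_swap]
    exact neg_ne_zero.2 (by rw [show sympForm m F p x = 1 from hx]; exact one_ne_zero)
  rcases h with (h | h) | h
  · exact h
  · exact absurd h hx'
  · exact absurd h hp

/-- the transvection group at `p`, as in the statement -/
def T (p : V) : Subgroup Sp :=
  Subgroup.closure {g : Sp | ∃ c : F, ∀ v : V,
    (g : Matrix (Fin m ⊕ Fin m) (Fin m ⊕ Fin m) F) *ᵥ v =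
      v + (c * (v ⬝ᵥ (Matrix.J (Fin m) F *ᵥ p))) • p}

theorem mem_T {p : V} {g : Sp} : g ∈ T p ↔ ∃ c : F, g = tr p c := by
  constructor
  · intro hg
    induction hg using Subgroup.closure_induction with
    | mem x hx =>
      obtain ⟨c, hc⟩ := hx
      exact ⟨c, ext_mulVec fun v => by rw [hc v, tr_mulVec]; rfl⟩
    | one => exact ⟨0, (tr_zero p).symm⟩
    | mul x y _ _ hx hy =>
      obtain ⟨c, rfl⟩ := hx; obtain ⟨d, rfl⟩ := hy
      exact ⟨c + d, (tr_add p c d).symm⟩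
    | inv x _ hx => obtain ⟨c, rfl⟩ := hx; exact ⟨-c, tr_inv p c⟩
  · rintro ⟨c, rfl⟩
    exact Subgroup.subset_closure ⟨c, fun v => tr_mulVec p c v⟩

/-- the set of transvection groups -/
def S (F : Type*) [Field F] (m : ℕ) : Set (Subgroup ↥(Matrix.symplecticGroup (Fin m) F)) :=
  {A | ∃ p : Fin m ⊕ Fin m → F, p ≠ 0 ∧ A = T p}

theorem T_ne_bot {p : V} (hp : p ≠ 0) : T p ≠ ⊥ := by
  intro hb
  have h1 : tr p 1 ∈ T p := mem_T.2 ⟨1, rfl⟩
  rw [hb, Subgroup.mem_bot] at h1
  exact one_ne_zero (tr_eq_one hp h1)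

theorem mulVec_ne_zero {p : V} (hp : p ≠ 0) (g : Sp) : g.1 *ᵥ p ≠ 0 := fun e => hp (by
  have h : (g⁻¹ * g).1 *ᵥ p = (1 : Sp).1 *ᵥ p := by rw [inv_mul_cancel]
  rw [Submonoid.coe_mul, ← mulVec_mulVec, e, Matrix.mulVec_zero, Submonoid.coe_one, one_mulVec] at h
  exact h.symm)

theorem conjBy_T (p : V) (g : Sp) : conjBy (T p) g = T (g.1 *ᵥ p) := by
  have hf : ∀ c, g * tr p c = tr (g.1 *ᵥ p) c * g := fun c => ext_mulVec fun x => by
    rw [Submonoid.coe_mul, Submonoid.coe_mul, ← mulVec_mulVec, ← mulVec_mulVec, tr_mulVec,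
      tr_mulVec, mem_symplecticGroup_iff_sympForm.1 g.2, Matrix.mulVec_add, Matrix.mulVec_smul]
  ext x
  rw [Cfsg.Agent.RootSub.mem_conjBy, mem_T, mem_T]
  refine exists_congr fun c => ?_
  rw [mul_assoc, inv_mul_eq_iff_eq_mul, hf]
  exact mul_left_inj g

theorem commute_bot {p r : V} (h : sympForm m F p r = 0) : ⁅T p, T r⁆ = ⊥ := by
  rw [Cfsg.Agent.RootSub.commutator_eq_bot_iff_forall]
  intro a ha b hb
  obtain ⟨c, rfl⟩ := mem_T.1 ha
  obtain ⟨d, rfl⟩ := mem_T.1 hb
  have h' : sympForm m F r p = 0 := by rw [sympForm_swap, h, neg_zero]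
  apply ext_mulVec
  intro x
  rw [Submonoid.coe_mul, Submonoid.coe_mul, ← mulVec_mulVec, ← mulVec_mulVec]
  simp only [tr_mulVec, ← sympBil_apply, map_add, map_smul, LinearMap.add_apply,
    LinearMap.smul_apply]
  simp only [sympBil_apply, h, h', smul_zero, add_zero]
  abel

theorem generates : (⨆ A ∈ S F m, A) = ⊤ := by
  rw [eq_top_iff, ← sympTransvectionClosure_eq_top]
  refine Subgroup.closure_le _ |>.2 ?_
  rintro g ⟨v, c, hg⟩
  rcases eq_or_ne v 0 with rfl | hv
  · have : g = 1 := ext_mulVec fun x => by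
      rw [hg, sympTransvection_mulVec, smul_zero, add_zero, Submonoid.coe_one, one_mulVec]
    rw [this]; exact one_mem _
  · exact Subgroup.mem_iSup_of_mem (T v) (Subgroup.mem_iSup_of_mem ⟨v, hv, rfl⟩
      (mem_T.2 ⟨c, Subtype.ext hg⟩))

theorem pairCase {p r : V} (h : sympForm m F p r ≠ 0) :
    IsRankOnePair (T p) (T r) ∧ IsPSL2PairOver F (T p) (T r) := by
  set a := sympForm m F p r with ha
  have har : sympForm m F r p = -a := by rw [sympForm_swap]
  have hd : ∀ x y : V, (J (Fin m) F *ᵥ y) ⬝ᵥ x = sympForm m F x y := fun x y => dotProduct_comm _ _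
  have h₁ : (a⁻¹ • (J (Fin m) F *ᵥ r)) ⬝ᵥ p = 1 := by
    rw [smul_dotProduct, hd, ← ha, smul_eq_mul, inv_mul_cancel₀ h]
  have h₂ : (a⁻¹ • (J (Fin m) F *ᵥ r)) ⬝ᵥ r = 0 := by
    rw [smul_dotProduct, hd, sympForm_self, smul_zero]
  have h₃ : ((-a)⁻¹ • (J (Fin m) F *ᵥ p)) ⬝ᵥ p = 0 := by
    rw [smul_dotProduct, hd, sympForm_self, smul_zero]
  have h₄ : ((-a)⁻¹ • (J (Fin m) F *ᵥ p)) ⬝ᵥ r = 1 := by
    rw [smul_dotProduct, hd, har, smul_eq_mul, inv_mul_cancel₀ (neg_ne_zero.2 h)]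
  set f := pairHom p r _ _ h₁ h₂ h₃ h₄ with hf
  have eu : ∀ c : F, (f (uu c)).1 = (tr p (c * (-a)⁻¹)).1 := fun c => by
    refine Matrix.ext_of_mulVec_single fun i => ?_
    rw [hf, pairHom_uu, tr_mulVec, smul_dotProduct, hd, smul_eq_mul, mul_assoc]
  have ev : ∀ c : F, (f (vv c)).1 = (tr r (c * a⁻¹)).1 := fun c => by
    refine Matrix.ext_of_mulVec_single fun i => ?_
    rw [hf, pairHom_vv, tr_mulVec, smul_dotProduct, hd, smul_eq_mul, mul_assoc]
  have hmem : ∀ g, (f g).1 ∈ Matrix.symplecticGroup (Fin m) F := fun g =>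
    Cfsg.Agent.Linear.transvection_induction (fun y => (f y).1 ∈ Matrix.symplecticGroup (Fin m) F)
      (fun i j hij c => by
        fin_cases i <;> fin_cases j
        · exact absurd rfl hij
        · rw [show Matrix.SpecialLinearGroup.transvection hij c = uu c by
            apply Cfsg.Agent.RootSub.SL2Gen.sl_ext <;>
              simp [Matrix.SpecialLinearGroup.transvection_coe, Matrix.single_apply], eu]
          exact (tr _ _).2
        · rw [show Matrix.SpecialLinearGroup.transvection hij c = vv c by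
            apply Cfsg.Agent.RootSub.SL2Gen.sl_ext <;>
              simp [Matrix.SpecialLinearGroup.transvection_coe, Matrix.single_apply], ev]
          exact (tr _ _).2
        · exact absurd rfl hij)
      (fun x y hx hy => by
        simp only [map_mul, Matrix.SpecialLinearGroup.coe_mul]
        exact mul_mem hx hy) g
  let φ : Matrix.SpecialLinearGroup (Fin 2) F →* Sp :=
    { toFun := fun g => ⟨(f g).1, hmem g⟩
      map_one' := Subtype.ext (by simp)
      map_mul' := fun x y => Subtype.ext (by simp) }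
  have hU : (upperUnipotentSL2 F).map φ = T p := by
    ext x
    rw [mem_T]
    constructor
    · rintro ⟨y, hy, rfl⟩
      obtain ⟨c, rfl⟩ := mem_upper.1 hy
      exact ⟨_, Subtype.ext (eu c)⟩
    · rintro ⟨c, rfl⟩
      exact ⟨uu (c * -a), mem_upper.2 ⟨_, rfl⟩, Subtype.ext
        (by rw [show (φ (uu (c * -a))).1 = (f (uu (c * -a))).1 from rfl, eu,
          mul_inv_cancel_right₀ (neg_ne_zero.2 h)])⟩
  have hV : (lowerUnipotentSL2 F).map φ = T r := by
    ext x
    rw [mem_T]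
    constructor
    · rintro ⟨y, hy, rfl⟩
      obtain ⟨c, rfl⟩ := mem_lower.1 hy
      exact ⟨_, Subtype.ext (ev c)⟩
    · rintro ⟨c, rfl⟩
      exact ⟨vv (c * a), mem_lower.2 ⟨_, rfl⟩, Subtype.ext
        (by rw [show (φ (vv (c * a))).1 = (f (vv (c * a))).1 from rfl, ev,
          mul_inv_cancel_right₀ h])⟩
  have := pair_of_hom φ (by
    have hinj : Function.Injective φ := fun x y e =>
      pairHom_injective h₁ h₂ h₃ h₄ (Subtype.ext (congrArg Subtype.val e :))
    rw [(MonoidHom.ker_eq_bot_iff φ).2 hinj]; exact bot_le)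
  rwa [hU, hV] at this

theorem pair_cases (p r : V) :
    ⁅T p, T r⁆ = ⊥ ∨ (IsRankOnePair (T p) (T r) ∧ IsPSL2PairOver F (T p) (T r)) :=
  (em (sympForm m F p r = 0)).imp commute_bot pairCase

theorem isRootSubgroupSet : IsRootSubgroupSet (S F m) where
  commutative := by
    rintro _ ⟨p, -, rfl⟩
    exact ⟨⟨by
      rintro ⟨a, ha⟩ ⟨b, hb⟩
      obtain ⟨c, rfl⟩ := mem_T.1 ha
      obtain ⟨d, rfl⟩ := mem_T.1 hb
      exact Subtype.ext (by
        show tr p c * tr p d = tr p d * tr p c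
        rw [← tr_add, ← tr_add, add_comm])⟩⟩
  ne_bot := by rintro _ ⟨p, hp, rfl⟩; exact T_ne_bot hp
  generates := generates
  conj_mem := by
    rintro _ ⟨p, hp, rfl⟩ g
    exact ⟨_, mulVec_ne_zero hp g, conjBy_T p g⟩
  pair := by
    rintro _ ⟨p, -, rfl⟩ _ ⟨r, -, rfl⟩
    exact (pair_cases p r).imp id fun h => Or.inl h.1

theorem isDegenerate : IsDegenerateRootSet (S F m) := by
  rintro A ⟨p, hp, rfl⟩ B ⟨r, hr, rfl⟩ hc
  have hA : T p ∈ S F m := ⟨p, hp, rfl⟩
  have hB : T r ∈ S F m := ⟨r, hr, rfl⟩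
  rcases pair_cases p r with e | e
  · obtain ⟨s, hs, hes⟩ := hc.1
    rw [e] at hes
    exact T_ne_bot hs hes.symm
  · exact Cfsg.Agent.RootSub.not_rankOne_of_commCase isRootSubgroupSet hA hB hc e.1

theorem isKRootSubgroupSet : IsKRootSubgroupSet F (S F m) := by
  refine ⟨isRootSubgroupSet, ?_⟩
  rintro A ⟨p, hp, rfl⟩ B ⟨r, hr, rfl⟩ h
  rcases pair_cases p r with e | e
  · exact absurd e (Cfsg.Agent.RootSub.Pair.commutator_ne_bot h)
  · exact e.2

theorem connected : IsConnectedFamily (FAdj (S F m)) (S F m) := by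
  rintro A ⟨p, hp, rfl⟩ B ⟨r, hr, rfl⟩
  have hJ : ∀ {x : V}, x ≠ 0 → J (Fin m) F *ᵥ x ≠ 0 := fun {x} hx e => by
    obtain ⟨y, hy⟩ := exists_sympForm_eq_one hx
    have h0 : sympForm m F y x = 0 := by rw [Cfsg.sympForm, e, dotProduct_zero]
    rw [sympForm_swap, h0, neg_zero] at hy
    exact zero_ne_one hy
  obtain ⟨w, hw, hw'⟩ := exists_off_two (hJ hp) (hJ hr)
  have h1 : sympForm m F p w ≠ 0 := by
    rw [sympForm_swap, neg_ne_zero, Cfsg.sympForm, dotProduct_comm]; exact hw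
  have h2 : sympForm m F w r ≠ 0 := by rw [Cfsg.sympForm, dotProduct_comm]; exact hw'
  have hw0 : w ≠ 0 := fun e => hw (by rw [e, dotProduct_zero])
  have mp : T p ∈ S F m := ⟨p, hp, rfl⟩
  have mr : T r ∈ S F m := ⟨r, hr, rfl⟩
  have mw : T w ∈ S F m := ⟨w, hw0, rfl⟩
  have a1 : FAdj (S F m) (T p) (T w) := ⟨mp, mw, (pairCase h1).1⟩
  have a2 : FAdj (S F m) (T w) (T r) := ⟨mw, mr, (pairCase h2).1⟩
  exact (Relation.ReflTransGen.single a1).tail a2

theorem isRootSubgroupClass (hm : 0 < m) : IsRootSubgroupClass (S F m) :=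
  ⟨isRootSubgroupSet, isConjClass_of_connected
    ⟨T (Pi.single (Sum.inl ⟨0, hm⟩) 1), _, by simp, rfl⟩ connected⟩

end Cfsg.Agent.RootTransv.Symp
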