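import Cfsg.Agent.RootTransv.Restrict
import Cfsg.Agent.Classical.UBasic
import Mathlib.Algebra.Field.Shrink
import Mathlib.Algebra.Ring.Shrink

/-!
Unitary transvection groups with isotropic centre as root subgroups over the fixed field.
-/

set_option autoImplicit false

namespace Cfsg.Agent.RootTransv.Unit

open Matrix Cfsg Cfsg.Agent.RootSub.SL2Gen Cfsg.Agent.Classical
open scoped Matrix

variable {F : Type*} [Field F] {n q : ℕ}

set_option quotPrecheck false in
local notation "K" => ↥(Cfsg.SU n F q)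

/-- the functional `h(·, p)` -/
def dual (q : ℕ) (p : Fin n → F) : Fin n → F := fun i => p i ^ q

theorem dual_dot (p x : Fin n → F) : dual q p ⬝ᵥ x = U.herm q x p := by
  simp [dual, U.herm_def, dotProduct, mul_comm]

/-- the matrix of `x ↦ x + c h(x,p) p` -/
def mat (q : ℕ) (p : Fin n → F) (c : F) : Matrix (Fin n) (Fin n) F :=
  1 + Matrix.vecMulVec (c • p) (dual q p)

theorem mat_mulVec (p : Fin n → F) (c : F) (x : Fin n → F) :
    mat q p c *ᵥ x = x + (c * U.herm q x p) • p := by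
  rw [mat, Matrix.add_mulVec, Matrix.one_mulVec, Matrix.vecMulVec_mulVec, op_smul_eq_smul, dual_dot,
    smul_smul, mul_comm]

theorem det_mat {p : Fin n → F} (hp : U.herm q p p = 0) (c : F) : (mat q p c).det = 1 := by
  rw [mat, Matrix.vecMulVec_eq Unit, Matrix.det_one_add_replicateCol_mul_replicateRow,
    dotProduct_smul, dual_dot, hp, smul_zero, add_zero]

theorem ext_mulVec {g h : K} (e : ∀ x, g.1.1 *ᵥ x = h.1.1 *ᵥ x) : g = h :=
  Subtype.ext (Subtype.ext (Matrix.ext_of_mulVec_single fun i => e _))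

theorem coe_mul_mulVec (g h : K) (x : Fin n → F) : (g * h).1.1 *ᵥ x = g.1.1 *ᵥ (h.1.1 *ᵥ x) :=
  (Matrix.mulVec_mulVec x g.1.1 h.1.1).symm

theorem coe_one_mulVec (x : Fin n → F) : (1 : K).1.1 *ᵥ x = x := Matrix.one_mulVec x

theorem herm_app (g : K) (x y : Fin n → F) : U.herm q (g.1.1 *ᵥ x) (g.1.1 *ᵥ y) = U.herm q x y :=
  g.2 x y

/-- the transvection, when the parameters are admissible -/
noncomputable def tr (q : ℕ) (p : Fin n → F) (c : F) : ↥(Cfsg.SU n F q) :=
  @dite _ (U.herm q p p = 0 ∧ ∀ x y, U.herm q (mat q p c *ᵥ x) (mat q p c *ᵥ y) = U.herm q x y)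
    (_root_.Classical.propDecidable _) (fun h => ⟨⟨mat q p c, det_mat h.1 c⟩, h.2⟩) (fun _ => 1)

variable (hF : U.SqField F q)
include hF

theorem mat_herm {p : Fin n → F} (hp : U.herm q p p = 0) {c : F} (hc : c ^ q = -c) (x y : Fin n → F) :
    U.herm q (mat q p c *ᵥ x) (mat q p c *ᵥ y) = U.herm q x y := by
  simp only [mat_mulVec, U.herm_add_left, hF.herm_add_right, U.herm_smul_left, U.herm_smul_right,
    mul_pow, hF.herm_symm, hp, hc]
  ring

theorem tr_mulVec {p : Fin n → F} (hp : U.herm q p p = 0) {c : F} (hc : c ^ q = -c) (x : Fin n → F) :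
    (tr q p c).1.1 *ᵥ x = x + (c * U.herm q x p) • p := by
  rw [tr, dif_pos ⟨hp, mat_herm hF hp hc⟩]
  exact mat_mulVec p c x

theorem skew_zero : (0 : F) ^ q = -0 := by rw [neg_zero, zero_pow hF.q_ne_zero]

theorem tr_add {p : Fin n → F} (hp : U.herm q p p = 0) {c d : F} (hc : c ^ q = -c) (hd : d ^ q = -d) :
    tr q p (c + d) = tr q p c * tr q p d := by
  apply ext_mulVec
  intro x
  rw [coe_mul_mulVec, tr_mulVec hF hp (by rw [hF.add_pow, hc, hd, neg_add]), tr_mulVec hF hp hd,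
    tr_mulVec hF hp hc, U.herm_add_left, U.herm_smul_left, hp, mul_zero, add_zero, add_mul, add_smul]
  abel

theorem tr_zero {p : Fin n → F} (hp : U.herm q p p = 0) : tr q p 0 = 1 :=
  ext_mulVec fun x => by
    rw [tr_mulVec hF hp (skew_zero hF), coe_one_mulVec, zero_mul, zero_smul, add_zero]

theorem exists_herm_ne {p : Fin n → F} (hp : p ≠ 0) : ∃ u, U.herm q u p ≠ 0 := by
  by_contra! h
  exact hp (hF.eq_zero_of_herm p fun v => by rw [← hF.herm_symm, h v, zero_pow hF.q_ne_zero])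

theorem tr_eq_one {p : Fin n → F} (hp : U.herm q p p = 0) (hp0 : p ≠ 0) {c : F} (hc : c ^ q = -c)
    (e : tr q p c = 1) : c = 0 := by
  obtain ⟨u, hu⟩ := exists_herm_ne hF hp0
  have h := congrArg (fun g : K => g.1.1 *ᵥ u) e
  simp only [tr_mulVec hF hp hc, coe_one_mulVec, add_eq_left, smul_eq_zero, mul_eq_zero] at h
  exact (h.resolve_right hp0).resolve_right hu

omit hF in
/-- the transvection group, as in the statement -/
def T (p : Fin n → F) : Subgroup K :=
  Subgroup.closure {g : K |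
    (∀ v : Fin n → F, ∃ c : F, ((g : Matrix.SpecialLinearGroup (Fin n) F) : Matrix (Fin n) (Fin n) F) *ᵥ v = v + c • p) ∧
    ∀ v : Fin n → F, Cfsg.hermForm n F q v p = 0 →
      ((g : Matrix.SpecialLinearGroup (Fin n) F) : Matrix (Fin n) (Fin n) F) *ᵥ v = v}

theorem tr_inv {p : Fin n → F} (hp : U.herm q p p = 0) {c : F} (hc : c ^ q = -c) :
    (tr q p c)⁻¹ = tr q p (-c) := by
  refine inv_eq_of_mul_eq_one_right ?_
  rw [← tr_add hF hp hc (by rw [hF.neg_pow, hc]), add_neg_cancel, tr_zero hF hp]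

theorem mem_T {p : Fin n → F} (hp : U.herm q p p = 0) (hp0 : p ≠ 0) {g : K} :
    g ∈ T p ↔ ∃ c : F, c ^ q = -c ∧ g = tr q p c := by
  constructor
  · intro hg
    induction hg using Subgroup.closure_induction with
    | mem g hg =>
      obtain ⟨h1, h2⟩ := hg
      obtain ⟨u₀, hu₀⟩ := exists_herm_ne hF hp0
      obtain ⟨u, hu⟩ : ∃ u, U.herm q u p = 1 :=
        ⟨(U.herm q u₀ p)⁻¹ • u₀, by rw [U.herm_smul_left, inv_mul_cancel₀ hu₀]⟩
      obtain ⟨c, hc⟩ := h1 u
      have hc' : c ^ q = -c := by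
        have h := herm_app g u u
        rw [hc, U.herm_add_left, hF.herm_add_right, hF.herm_add_right, U.herm_smul_left,
          U.herm_smul_right, U.herm_smul_left, U.herm_smul_right, hp, hu,
          show U.herm q p u = 1 by rw [← hF.herm_symm, hu, one_pow]] at h
        linear_combination h
      refine ⟨c, hc', ext_mulVec fun x => ?_⟩
      have hfix := h2 (x - U.herm q x p • u) (by
        change U.herm q (x - U.herm q x p • u) p = 0
        rw [U.herm_sub_left, U.herm_smul_left, hu, mul_one, sub_self])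
      rw [Matrix.mulVec_sub, Matrix.mulVec_smul, hc, smul_add, smul_smul] at hfix
      rw [tr_mulVec hF hp hc', mul_comm c]
      linear_combination (norm := module) hfix
    | one => exact ⟨0, skew_zero hF, (tr_zero hF hp).symm⟩
    | mul x y _ _ hx hy =>
      obtain ⟨c, hc, rfl⟩ := hx; obtain ⟨d, hd, rfl⟩ := hy
      exact ⟨c + d, by rw [hF.add_pow, hc, hd, neg_add], (tr_add hF hp hc hd).symm⟩
    | inv x _ hx =>
      obtain ⟨c, hc, rfl⟩ := hx
      exact ⟨-c, by rw [hF.neg_pow, hc], tr_inv hF hp hc⟩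
  · rintro ⟨c, hc, rfl⟩
    refine Subgroup.subset_closure ⟨fun v => ⟨_, tr_mulVec hF hp hc v⟩, fun v hv => ?_⟩
    rw [tr_mulVec hF hp hc v, show U.herm q v p = 0 from hv, mul_zero, zero_smul, add_zero]

omit hF in
/-- the set of transvection groups -/
def S (F : Type*) [Field F] (n q : ℕ) : Set (Subgroup ↥(Cfsg.SU n F q)) :=
  {A | ∃ p : Fin n → F, p ≠ 0 ∧ Cfsg.hermForm n F q p p = 0 ∧ A = T p}

theorem S_comm : ∀ A ∈ S F n q, IsMulCommutative A := by
  rintro _ ⟨p, hp0, hp, rfl⟩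
  exact ⟨⟨by
    rintro ⟨a, ha⟩ ⟨b, hb⟩
    obtain ⟨c, hc, rfl⟩ := (mem_T hF hp hp0).1 ha
    obtain ⟨d, hd, rfl⟩ := (mem_T hF hp hp0).1 hb
    exact Subtype.ext (by
      show tr q p c * tr q p d = tr q p d * tr q p c
      rw [← tr_add hF hp hc hd, ← tr_add hF hp hd hc, add_comm])⟩⟩

theorem S_ne_bot : ∀ A ∈ S F n q, A ≠ ⊥ := by
  rintro _ ⟨p, hp0, hp, rfl⟩ hb
  obtain ⟨d, hd, hd'⟩ := hF.exists_skew
  have h1 : tr q p d ∈ T p := (mem_T hF hp hp0).2 ⟨d, hd', rfl⟩
  rw [hb, Subgroup.mem_bot] at h1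
  exact hd (tr_eq_one hF hp hp0 hd' h1)

theorem S_conj : ∀ A ∈ S F n q, ∀ g : K, conjBy A g ∈ S F n q := by
  rintro _ ⟨p, hp0, hp, rfl⟩ g
  have hgp : g.1.1 *ᵥ p ≠ 0 := fun e => hp0 (by
    have h : (g⁻¹ * g).1.1 *ᵥ p = (1 : K).1.1 *ᵥ p := by rw [inv_mul_cancel]
    rw [coe_mul_mulVec, e, Matrix.mulVec_zero, coe_one_mulVec] at h
    exact h.symm)
  have hp' : U.herm q (g.1.1 *ᵥ p) (g.1.1 *ᵥ p) = 0 := (herm_app g p p).trans hp
  refine ⟨g.1.1 *ᵥ p, hgp, hp', ?_⟩
  have hf : ∀ c, c ^ q = -c → g * tr q p c = tr q (g.1.1 *ᵥ p) c * g := fun c hc =>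
    ext_mulVec fun x => by
      rw [coe_mul_mulVec, coe_mul_mulVec, tr_mulVec hF hp hc, tr_mulVec hF hp' hc, herm_app,
        Matrix.mulVec_add, Matrix.mulVec_smul]
  ext x
  rw [Cfsg.Agent.RootSub.mem_conjBy, mem_T hF hp hp0, mem_T hF hp' hgp]
  refine exists_congr fun c => and_congr_right fun hc => ?_
  rw [mul_assoc, inv_mul_eq_iff_eq_mul, hf c hc]
  exact mul_left_inj g

theorem commute_bot {p r : Fin n → F} (hp : U.herm q p p = 0) (hp0 : p ≠ 0) (hr : U.herm q r r = 0)
    (hr0 : r ≠ 0) (h : U.herm q p r = 0) : ⁅T (q := q) p, T (q := q) r⁆ = ⊥ := by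
  rw [Cfsg.Agent.RootSub.commutator_eq_bot_iff_forall]
  intro a ha b hb
  obtain ⟨c, hc, rfl⟩ := (mem_T hF hp hp0).1 ha
  obtain ⟨d, hd, rfl⟩ := (mem_T hF hr hr0).1 hb
  have h' : U.herm q r p = 0 := by rw [← hF.herm_symm, h, zero_pow hF.q_ne_zero]
  apply ext_mulVec
  intro x
  simp only [coe_mul_mulVec, tr_mulVec hF hp hc, tr_mulVec hF hr hd, U.herm_add_left,
    U.herm_smul_left, h, h', mul_zero, add_zero]
  abel

omit hF in
/-- the fixed field of `x ↦ x ^ q` -/
def fixedField (hF : U.SqField F q) : Subfield F where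
  carrier := {x | x ^ q = x}
  mul_mem' {a b} ha hb := by show (a * b) ^ q = a * b; rw [mul_pow, ha, hb]
  one_mem' := one_pow q
  add_mem' {a b} ha hb := by show (a + b) ^ q = a + b; rw [hF.add_pow, ha, hb]
  zero_mem' := zero_pow hF.q_ne_zero
  neg_mem' {a} ha := by show (-a) ^ q = -a; rw [hF.neg_pow, ha]
  inv_mem' a ha := by show a⁻¹ ^ q = a⁻¹; rw [inv_pow, ha]

theorem card_fixedField : Nat.card (fixedField hF) = q := by
  haveI := hF.1
  have h := Nat.card_units (α := fixedField hF)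
  have h2 : Nat.card (fixedField hF)ˣ = q - 1 := by
    refine Eq.trans (Nat.card_congr (β := {c : F // c ^ (q - 1) = 1})
      { toFun := fun u => ⟨((u : fixedField hF) : F),
          (hF.fixed_iff (by simpa using u.ne_zero)).1 (u : fixedField hF).2⟩
        invFun := fun c =>
          have hc0 : c.1 ≠ 0 := fun e => by
            have := c.2
            rw [e, zero_pow (by have := hF.one_lt; omega)] at this
            exact zero_ne_one this
          Units.mk0 ⟨c.1, (hF.fixed_iff hc0).2 c.2⟩ (fun e => hc0 (congrArg Subtype.val e))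
        left_inv := fun u => Units.ext (Subtype.ext rfl)
        right_inv := fun c => Subtype.ext rfl }) hF.card_fixed_units
  have h1 := hF.one_lt
  have := Nat.card_pos (α := fixedField hF)
  omega

theorem pairCase (L : Type) [Field L] (ι : L →+* F) (hι : ∀ c : F, c ^ q = c ↔ c ∈ Set.range ι)
    {p r : Fin n → F} (hp : U.herm q p p = 0) (hp0 : p ≠ 0) (hr : U.herm q r r = 0) (hr0 : r ≠ 0)
    (h : U.herm q p r ≠ 0) :
    IsRankOnePair (T (q := q) p) (T (q := q) r) ∧ IsPSL2PairOver L (T (q := q) p) (T (q := q) r) := by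
  obtain ⟨ε, hε, hε'⟩ := hF.exists_skew
  have hι' : ∀ l, (ι l) ^ q = ι l := fun l => (hι _).2 ⟨l, rfl⟩
  set a := U.herm q p r with ha
  have ha' : U.herm q r p = a ^ q := by rw [ha, hF.herm_symm]
  have haq : a ^ q ≠ 0 := pow_ne_zero _ h
  set d := ε * a ^ q with hd
  have hd0 : d ≠ 0 := mul_ne_zero hε haq
  have hN : (a * a ^ q) ^ q = a * a ^ q := by rw [mul_pow, hF.pow_pow, mul_comm]
  have h₁ : ((d * a)⁻¹ • dual q r) ⬝ᵥ (d • p) = 1 := by
    rw [smul_dotProduct, dotProduct_smul, dual_dot, ← ha, smul_eq_mul, smul_eq_mul]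
    exact inv_mul_cancel₀ (mul_ne_zero hd0 h)
  have h₂ : ((d * a)⁻¹ • dual q r) ⬝ᵥ r = 0 := by rw [smul_dotProduct, dual_dot, hr, smul_zero]
  have h₃ : ((a ^ q)⁻¹ • dual q p) ⬝ᵥ (d • p) = 0 := by
    rw [smul_dotProduct, dotProduct_smul, dual_dot, hp, smul_zero, smul_zero]
  have h₄ : ((a ^ q)⁻¹ • dual q p) ⬝ᵥ r = 1 := by
    rw [smul_dotProduct, dual_dot, ha', smul_eq_mul, inv_mul_cancel₀ haq]
  set f := (pairHom (d • p) r _ _ h₁ h₂ h₃ h₄).comp (Matrix.SpecialLinearGroup.map ι) with hf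
  have skewu : ∀ l, (ι l * ε) ^ q = -(ι l * ε) := fun l => by rw [mul_pow, hι', hε', mul_neg]
  have skewv : ∀ l, (ι l * (ε * (a * a ^ q))⁻¹) ^ q = -(ι l * (ε * (a * a ^ q))⁻¹) := fun l => by
    rw [mul_pow, hι', inv_pow, mul_pow, hε', hN, neg_mul, inv_neg, mul_neg]
  have muu : ∀ l : L, Matrix.SpecialLinearGroup.map ι (uu l) = uu (ι l) := map_uu ι
  have mvv : ∀ l : L, Matrix.SpecialLinearGroup.map ι (vv l) = vv (ι l) := map_vv ι
  have eu : ∀ l, f (uu l) = (tr q p (ι l * ε)).1 := fun l => by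
    refine Subtype.ext (Matrix.ext_of_mulVec_single fun i => ?_)
    rw [hf, MonoidHom.comp_apply, muu, pairHom_uu, tr_mulVec hF hp (skewu l), smul_dotProduct,
      dual_dot, smul_eq_mul, smul_smul, hd]
    congr 2
    field_simp
  have ev : ∀ l, f (vv l) = (tr q r (ι l * (ε * (a * a ^ q))⁻¹)).1 := fun l => by
    refine Subtype.ext (Matrix.ext_of_mulVec_single fun i => ?_)
    rw [hf, MonoidHom.comp_apply, mvv, pairHom_vv, tr_mulVec hF hr (skewv l), smul_dotProduct,
      dual_dot, smul_eq_mul, hd]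
    congr 2
    field_simp
  have hmem : ∀ g, f g ∈ Cfsg.SU n F q := fun g =>
    Cfsg.Agent.Linear.transvection_induction (fun y => f y ∈ Cfsg.SU n F q)
      (fun i j hij c => by
        fin_cases i <;> fin_cases j
        · exact absurd rfl hij
        · rw [show Matrix.SpecialLinearGroup.transvection hij c = uu c by
            apply Cfsg.Agent.RootSub.SL2Gen.sl_ext <;>
              simp [Matrix.SpecialLinearGroup.transvection_coe], eu]
          exact (tr _ _ _).2
        · rw [show Matrix.SpecialLinearGroup.transvection hij c = vv c by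
            apply Cfsg.Agent.RootSub.SL2Gen.sl_ext <;>
              simp [Matrix.SpecialLinearGroup.transvection_coe], ev]
          exact (tr _ _ _).2
        · exact absurd rfl hij)
      (fun x y hx hy => by rw [map_mul]; exact mul_mem hx hy) g
  let φ := f.codRestrict (Cfsg.SU n F q) hmem
  have hU : (upperUnipotentSL2 L).map φ = T p := by
    ext x
    rw [mem_T hF hp hp0]
    constructor
    · rintro ⟨y, hy, rfl⟩
      obtain ⟨c, rfl⟩ := mem_upper.1 hy
      exact ⟨_, skewu c, Subtype.ext (eu c)⟩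
    · rintro ⟨c, hc, rfl⟩
      obtain ⟨l, hl⟩ := (hι (c / ε)).1 (by rw [div_pow, hc, hε', neg_div_neg_eq])
      exact ⟨uu l, mem_upper.2 ⟨_, rfl⟩, Subtype.ext (by
        rw [show (φ (uu l)).1 = f (uu l) from rfl, eu, hl, div_mul_cancel₀ _ hε])⟩
  have hV : (lowerUnipotentSL2 L).map φ = T r := by
    ext x
    rw [mem_T hF hr hr0]
    constructor
    · rintro ⟨y, hy, rfl⟩
      obtain ⟨c, rfl⟩ := mem_lower.1 hy
      exact ⟨_, skewv c, Subtype.ext (ev c)⟩
    · rintro ⟨c, hc, rfl⟩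
      obtain ⟨l, hl⟩ := (hι (c * (ε * (a * a ^ q)))).1 (by
        rw [mul_pow, mul_pow ε, hc, hε', hN]; ring)
      exact ⟨vv l, mem_lower.2 ⟨_, rfl⟩, Subtype.ext (by
        rw [show (φ (vv l)).1 = f (vv l) from rfl, ev, hl,
          mul_inv_cancel_right₀ (mul_ne_zero hε (mul_ne_zero h haq))])⟩
  have := pair_of_hom φ (by
    have hinj : Function.Injective φ := fun x y e => by
      have e' := pairHom_injective h₁ h₂ h₃ h₄ (congrArg Subtype.val e)
      exact Subtype.ext (Matrix.map_injective ι.injective (congrArg Subtype.val e'))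
    rw [(MonoidHom.ker_eq_bot_iff φ).2 hinj]; exact bot_le)
  rwa [hU, hV] at this

theorem exists_field : ∃ (L : Type) (_ : Field L) (_ : Fintype L) (ι : L →+* F),
    Fintype.card L = q ∧ ∀ c : F, c ^ q = c ↔ c ∈ Set.range ι := by
  haveI := hF.1
  haveI : Small.{0} (fixedField hF) := Countable.toSmall _
  let e : Shrink.{0} (fixedField hF) ≃+* fixedField hF := Shrink.ringEquiv _
  haveI : Finite (Shrink.{0} (fixedField hF)) := Finite.of_equiv _ e.toEquiv.symm
  letI := Fintype.ofFinite (Shrink.{0} (fixedField hF))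
  refine ⟨Shrink.{0} (fixedField hF), inferInstance, inferInstance,
    (fixedField hF).subtype.comp e.toRingHom, ?_, fun c => ?_⟩
  · rw [← Nat.card_eq_fintype_card, Nat.card_congr e.toEquiv, card_fixedField hF]
  · constructor
    · intro hc
      exact ⟨e.symm ⟨c, hc⟩, by simp⟩
    · rintro ⟨l, rfl⟩
      exact (e l).2

theorem S_pair (L : Type) [Field L] (ι : L →+* F) (hι : ∀ c : F, c ^ q = c ↔ c ∈ Set.range ι) :
    ∀ A ∈ S F n q, ∀ B ∈ S F n q, ⁅A, B⁆ = ⊥ ∨ (IsRankOnePair A B ∧ IsPSL2PairOver L A B) := by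
  rintro _ ⟨p, hp0, hp, rfl⟩ _ ⟨r, hr0, hr, rfl⟩
  exact (em (U.herm q p r = 0)).imp (commute_bot hF hp hp0 hr hr0)
    (pairCase hF L ι hι hp hp0 hr hr0)

theorem connected : IsConnectedFamily (FAdj (S F n q)) (S F n q) := by
  obtain ⟨L, _, _, ι, -, hι⟩ := exists_field hF
  rintro A ⟨p, hp0, hp, rfl⟩ B ⟨r, hr0, hr, rfl⟩
  change U.herm q p p = 0 at hp
  change U.herm q r r = 0 at hr
  have mp : T p ∈ S F n q := ⟨p, hp0, hp, rfl⟩
  have mr : T r ∈ S F n q := ⟨r, hr0, hr, rfl⟩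
  by_cases h : U.herm q p r = 0
  · have hd : ∀ {x : Fin n → F}, x ≠ 0 → dual q x ≠ 0 := fun {x} hx e => by
      obtain ⟨y, hy⟩ := exists_herm_ne hF hx
      rw [← dual_dot, e, zero_dotProduct] at hy
      exact hy rfl
    obtain ⟨z, hz, hz'⟩ := exists_off_two (hd hp0) (hd hr0)
    rw [dual_dot] at hz hz'
    obtain ⟨y, hy⟩ := hF.exists_trace (c := -U.herm q z z) (by rw [hF.neg_pow, hF.herm_symm])
    have hpz : U.herm q p z ≠ 0 := by
      rw [← hF.herm_symm]; exact pow_ne_zero _ hz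
    set t := y / U.herm q p z
    set w := z + t • p with hw
    have hwp : U.herm q w p = U.herm q z p := by
      rw [hw, U.herm_add_left, U.herm_smul_left, hp, mul_zero, add_zero]
    have hwr : U.herm q w r = U.herm q z r := by
      rw [hw, U.herm_add_left, U.herm_smul_left, h, mul_zero, add_zero]
    have hww : U.herm q w w = 0 := by
      have e1 : t * U.herm q p z = y := div_mul_cancel₀ _ hpz
      have e2 : t ^ q * U.herm q z p = y ^ q := by rw [← hF.herm_symm p z, ← mul_pow, e1]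
      simp only [hw, U.herm_add_left, hF.herm_add_right, U.herm_smul_left, U.herm_smul_right, hp]
      linear_combination e1 + e2 + hy
    have hw0 : w ≠ 0 := fun e => hz (by rw [← hwp, e, U.herm_zero_left])
    have mw : T w ∈ S F n q := ⟨w, hw0, hww, rfl⟩
    have hpw : U.herm q p w ≠ 0 := by
      rw [← hF.herm_symm, hwp]; exact pow_ne_zero _ hz
    have a1 : FAdj (S F n q) (T p) (T w) :=
      ⟨mp, mw, (pairCase hF L ι hι hp hp0 hww hw0 hpw).1⟩
    have a2 : FAdj (S F n q) (T w) (T r) :=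
      ⟨mw, mr, (pairCase hF L ι hι hww hw0 hr hr0 (by rwa [hwr])).1⟩
    exact (Relation.ReflTransGen.single a1).tail a2
  · exact Relation.ReflTransGen.single (show FAdj (S F n q) (T p) (T r) from
      ⟨mp, mr, (pairCase hF L ι hι hp hp0 hr hr0 h).1⟩)

theorem S_nonempty (hn : 2 ≤ n) : (S F n q).Nonempty := by
  obtain ⟨a, ha⟩ := hF.exists_norm (c := -1) (by rw [hF.neg_pow, one_pow])
  set i : Fin n := ⟨0, by omega⟩
  set j : Fin n := ⟨1, by omega⟩
  have hij : i ≠ j := by simp [i, j]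
  set p : Fin n → F := Pi.single i 1 + a • Pi.single j 1
  refine ⟨T p, p, fun e => by simpa [p, hij] using congrFun e i, ?_, rfl⟩
  show U.herm q p p = 0
  simp only [p, U.herm_add_left, hF.herm_add_right, U.herm_smul_left, U.herm_smul_right,
    U.herm_single_one _ hF.q_ne_zero, Pi.single_eq_same, Pi.single_eq_of_ne hij,
    Pi.single_eq_of_ne hij.symm, Pi.add_apply, Pi.smul_apply, smul_eq_mul,
    mul_zero, mul_one, add_zero, zero_add]
  rw [← pow_succ, ha]
  ring

end Cfsg.Agent.RootTransv.Unit
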